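import Mathlib

/-!
# Cyclotomic values and orders (helper962)
-/

set_option autoImplicit false

namespace Cfsg.Agent.H962.CycNum

section Field

variable {k : Type*} [Field k] {x : k}

theorem z3 (h : x ^ 3 = 1) (h1 : x ≠ 1) : x ^ 2 + x + 1 = 0 := by
  have : (x - 1) * (x ^ 2 + x + 1) = 0 := by linear_combination h
  exact (mul_eq_zero.1 this).resolve_left (sub_ne_zero.2 h1)

theorem z6 (h : x ^ 6 = 1) (h3 : x ^ 3 ≠ 1) (h2 : x ^ 2 ≠ 1) : x ^ 2 - x + 1 = 0 := by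
  have e : (x ^ 3 - 1) * (x ^ 3 + 1) = 0 := by linear_combination h
  have e2 : x ^ 3 + 1 = 0 := (mul_eq_zero.1 e).resolve_left (sub_ne_zero.2 h3)
  have e3 : (x + 1) * (x ^ 2 - x + 1) = 0 := by linear_combination e2
  refine (mul_eq_zero.1 e3).resolve_left fun h0 => h2 ?_
  linear_combination (x - 1) * h0

theorem z8 (h : x ^ 8 = 1) (h4 : x ^ 4 ≠ 1) : x ^ 4 + 1 = 0 := by
  have e : (x ^ 4 - 1) * (x ^ 4 + 1) = 0 := by linear_combination h
  exact (mul_eq_zero.1 e).resolve_left (sub_ne_zero.2 h4)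

theorem z12 (h : x ^ 12 = 1) (h6 : x ^ 6 ≠ 1) (h4 : x ^ 4 ≠ 1) : x ^ 4 - x ^ 2 + 1 = 0 := by
  have e : (x ^ 6 - 1) * (x ^ 6 + 1) = 0 := by linear_combination h
  have e2 : x ^ 6 + 1 = 0 := (mul_eq_zero.1 e).resolve_left (sub_ne_zero.2 h6)
  have e3 : (x ^ 2 + 1) * (x ^ 4 - x ^ 2 + 1) = 0 := by linear_combination e2
  refine (mul_eq_zero.1 e3).resolve_left fun h0 => h4 ?_
  linear_combination (x ^ 2 - 1) * h0

theorem z24 (h : x ^ 24 = 1) (h12 : x ^ 12 ≠ 1) (h8 : x ^ 8 ≠ 1) : x ^ 8 - x ^ 4 + 1 = 0 := by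
  have e : (x ^ 12 - 1) * (x ^ 12 + 1) = 0 := by linear_combination h
  have e2 : x ^ 12 + 1 = 0 := (mul_eq_zero.1 e).resolve_left (sub_ne_zero.2 h12)
  have e3 : (x ^ 4 + 1) * (x ^ 8 - x ^ 4 + 1) = 0 := by linear_combination e2
  refine (mul_eq_zero.1 e3).resolve_left fun h0 => h8 ?_
  linear_combination (x ^ 4 - 1) * h0

theorem z15 (h : x ^ 15 = 1) (h5 : x ^ 5 ≠ 1) (h3 : x ^ 3 ≠ 1) :
    x ^ 8 - x ^ 7 + x ^ 5 - x ^ 4 + x ^ 3 - x + 1 = 0 := by
  have e : (x ^ 5 - 1) * (x ^ 10 + x ^ 5 + 1) = 0 := by linear_combination h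
  have e2 : x ^ 10 + x ^ 5 + 1 = 0 := (mul_eq_zero.1 e).resolve_left (sub_ne_zero.2 h5)
  have e3 : (x ^ 2 + x + 1) * (x ^ 8 - x ^ 7 + x ^ 5 - x ^ 4 + x ^ 3 - x + 1) = 0 := by linear_combination e2
  refine (mul_eq_zero.1 e3).resolve_left fun h0 => h3 ?_
  linear_combination (x - 1) * h0

theorem z30 (h : x ^ 30 = 1) (h15 : x ^ 15 ≠ 1) (h10 : x ^ 10 ≠ 1) (h6 : x ^ 6 ≠ 1) :
    x ^ 8 + x ^ 7 - x ^ 5 - x ^ 4 - x ^ 3 + x + 1 = 0 := by
  have e : (x ^ 15 - 1) * (x ^ 15 + 1) = 0 := by linear_combination h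
  have e2 : x ^ 15 + 1 = 0 := (mul_eq_zero.1 e).resolve_left (sub_ne_zero.2 h15)
  have e3 : (x ^ 5 + 1) * (x ^ 10 - x ^ 5 + 1) = 0 := by linear_combination e2
  have e4 : x ^ 10 - x ^ 5 + 1 = 0 := by
    refine (mul_eq_zero.1 e3).resolve_left fun h0 => h10 ?_
    linear_combination (x ^ 5 - 1) * h0
  have e5 : (x ^ 2 - x + 1) * (x ^ 8 + x ^ 7 - x ^ 5 - x ^ 4 - x ^ 3 + x + 1) = 0 := by linear_combination e4
  refine (mul_eq_zero.1 e5).resolve_left fun h0 => h6 ?_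
  linear_combination (x + 1) * (x ^ 3 - 1) * h0

/-! orders from the values -/

theorem o3 (h : x ^ 2 + x + 1 = 0) (h3 : (3 : k) ≠ 0) : orderOf x = 3 := by
  have e : x ^ 3 = 1 := by linear_combination (x - 1) * h
  refine orderOf_eq_prime e fun h1 => h3 ?_
  rw [h1] at h
  linear_combination h

theorem o6 (h : x ^ 2 - x + 1 = 0) (h2 : (2 : k) ≠ 0) (h3 : (3 : k) ≠ 0) : orderOf x = 6 := by
  have e : x ^ 3 = -1 := by linear_combination (x + 1) * h
  refine orderOf_eq_of_pow_and_pow_div_prime (by norm_num) (by linear_combination (x ^ 3 - 1) * e) ?_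
  intro p hp hpd
  have : p = 2 ∨ p = 3 := by
    have := Nat.le_of_dvd (by norm_num) hpd
    interval_cases p <;> revert hp hpd <;> decide
  rcases this with rfl | rfl
  · show x ^ 3 ≠ 1
    intro h4
    apply h2
    linear_combination e - h4
  · show x ^ 2 ≠ 1
    intro h4
    -- x = 2, 4 = 1
    have e2 : x = 2 := by linear_combination h4 - h
    rw [e2] at h4
    apply h3
    linear_combination h4

theorem o8 (h : x ^ 4 + 1 = 0) (h2 : (2 : k) ≠ 0) : orderOf x = 8 := by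
  refine orderOf_eq_of_pow_and_pow_div_prime (by norm_num) (by linear_combination (x ^ 4 - 1) * h) ?_
  intro p hp hpd
  have : p = 2 := by
    have := Nat.le_of_dvd (by norm_num) hpd
    interval_cases p <;> revert hp hpd <;> decide
  subst this
  show x ^ 4 ≠ 1
  intro h4
  apply h2
  linear_combination h - h4

theorem o12 (h : x ^ 4 - x ^ 2 + 1 = 0) (h2 : (2 : k) ≠ 0) (h3 : (3 : k) ≠ 0) : orderOf x = 12 := by
  have e : x ^ 6 = -1 := by linear_combination (x ^ 2 + 1) * h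
  refine orderOf_eq_of_pow_and_pow_div_prime (by norm_num) (by linear_combination (x ^ 6 - 1) * e) ?_
  intro p hp hpd
  have : p = 2 ∨ p = 3 := by
    have := Nat.le_of_dvd (by norm_num) hpd
    interval_cases p <;> revert hp hpd <;> decide
  rcases this with rfl | rfl
  · show x ^ 6 ≠ 1
    intro h4
    apply h2
    linear_combination e - h4
  · show x ^ 4 ≠ 1
    intro h4
    have e2 : x ^ 2 = 2 := by linear_combination h4 - h
    apply h3
    linear_combination h4 - (x ^ 2 + 2) * e2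

theorem o24 (h : x ^ 8 - x ^ 4 + 1 = 0) (h2 : (2 : k) ≠ 0) (h3 : (3 : k) ≠ 0) : orderOf x = 24 := by
  have e : x ^ 12 = -1 := by linear_combination (x ^ 4 + 1) * h
  refine orderOf_eq_of_pow_and_pow_div_prime (by norm_num) (by linear_combination (x ^ 12 - 1) * e) ?_
  intro p hp hpd
  have : p = 2 ∨ p = 3 := by
    have := Nat.le_of_dvd (by norm_num) hpd
    interval_cases p <;> revert hp hpd <;> decide
  rcases this with rfl | rfl
  · show x ^ 12 ≠ 1
    intro h4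
    apply h2
    linear_combination e - h4
  · show x ^ 8 ≠ 1
    intro h4
    have e2 : x ^ 4 = 2 := by linear_combination h4 - h
    apply h3
    linear_combination h4 - (x ^ 4 + 2) * e2

end Field

/-- casting an integer identity into `ZMod r` -/
theorem cast_eq {r N : ℕ} {z : ℤ} (hN : (N : ℤ) = z) (h : r ∣ N) : ((z : ℤ) : ZMod r) = 0 := by
  rw [← hN, Int.cast_natCast]
  exact (ZMod.natCast_eq_zero_iff N r).2 h

theorem dvd_of_cast {r N : ℕ} {z : ℤ} (hN : (N : ℤ) = z) (h : ((z : ℤ) : ZMod r) = 0) : r ∣ N := by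
  rw [← hN, Int.cast_natCast] at h
  exact (ZMod.natCast_eq_zero_iff N r).1 h

theorem two_ne {r : ℕ} [Fact r.Prime] (h : r ≠ 2) : (2 : ZMod r) ≠ 0 := by
  intro h0
  have : ((2 : ℕ) : ZMod r) = 0 := by exact_mod_cast h0
  rw [ZMod.natCast_eq_zero_iff] at this
  exact h ((Nat.prime_dvd_prime_iff_eq Fact.out Nat.prime_two).1 this)

theorem three_ne {r : ℕ} [Fact r.Prime] (h : r ≠ 3) : (3 : ZMod r) ≠ 0 := by
  intro h0
  have : ((3 : ℕ) : ZMod r) = 0 := by exact_mod_cast h0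
  rw [ZMod.natCast_eq_zero_iff] at this
  exact h ((Nat.prime_dvd_prime_iff_eq Fact.out Nat.prime_three).1 this)

/-- the order divides `r - 1` -/
theorem order_dvd {r n : ℕ} (hr : r.Prime) {x : ZMod r} (h : orderOf x = n) (hn : 0 < n) : n ∣ r - 1 := by
  have : Fact r.Prime := ⟨hr⟩
  have hx : x ≠ 0 := by
    rintro rfl
    rw [orderOf_zero] at h
    omega
  rw [← h]
  exact ZMod.orderOf_dvd_card_sub_one hx

theorem order_lt {r n : ℕ} (hr : r.Prime) {x : ZMod r} (h : orderOf x = n) (hn : 0 < n) : n < r := by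
  have h1 := Nat.le_of_dvd (by have := hr.two_le; omega) (order_dvd hr h hn)
  have := hr.two_le
  omega

/-- the powers of an element of known order -/
theorem pow_ne_of_order {r n j : ℕ} {x : ZMod r} (h : orderOf x = n) (hj : ¬ n ∣ j) : x ^ j ≠ 1 := by
  intro h1
  exact hj (h ▸ orderOf_dvd_of_pow_eq_one h1)

theorem pow_eq_of_order {r n : ℕ} {x : ZMod r} (h : orderOf x = n) : x ^ n = 1 := h ▸ pow_orderOf_eq_one x

/-- a prime power dividing `m` and congruent to 1 modulo a number which is larger -/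
theorem pow_eq_one_of_small {t v m : ℕ} (hm : m ∣ t ^ v - 1) (hle : t ^ v ≤ m) (ht : t.Prime) : v = 0 := by
  have h1 : 1 ≤ t ^ v := Nat.one_le_pow _ _ ht.pos
  have h2 : t ^ v - 1 = 0 := Nat.eq_zero_of_dvd_of_lt hm (by omega)
  by_contra hv
  have : 1 < t ^ v := Nat.one_lt_pow hv ht.one_lt
  omega

/-- a divisor `t ^ v` of `R < 2 m + 2`, `R ≠ m + 1`, congruent to one modulo `m` -/
theorem pow_eq_one_of_near {t v m R : ℕ} (hm : m ∣ t ^ v - 1) (hR : t ^ v ∣ R) (hR0 : R ≠ 0) (hlt : R < 2 * m + 1)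
    (hne : R ≠ m + 1) (ht : t.Prime) : v = 0 := by
  by_contra hv
  have h1 : 1 < t ^ v := Nat.one_lt_pow hv ht.one_lt
  have h2 : m ≤ t ^ v - 1 := Nat.le_of_dvd (by omega) hm
  obtain ⟨j, hj⟩ := hR
  have hj0 : j ≠ 0 := by rintro rfl; rw [mul_zero] at hj; exact hR0 hj
  have hj1 : j = 1 := by
    by_contra hne1
    have h3 : t ^ v * 2 ≤ t ^ v * j := Nat.mul_le_mul_left _ (by omega)
    omega
  rw [hj1, mul_one] at hj
  obtain ⟨i, hi⟩ := hm
  have hi0 : i ≠ 0 := by rintro rfl; omega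
  have hi1 : i = 1 := by
    by_contra hne1
    have h3 : m * 2 ≤ m * i := Nat.mul_le_mul_left _ (by omega)
    omega
  rw [hi1, mul_one] at hi
  omega

/-- a divisor prime to one factor -/
theorem pow_dvd_of_coprime {t v a b M : ℕ} (hM : t ^ v ∣ M) (e : M = a * b) (ht : t.Prime) (hb : ¬ t ∣ b) : t ^ v ∣ a := by
  rw [e] at hM
  exact (Nat.Coprime.pow_left v ((Nat.Prime.coprime_iff_not_dvd ht).2 hb)).dvd_of_dvd_mul_right hM

end Cfsg.Agent.H962.CycNum
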