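import Cfsg.Agent.H962.ExIsol
import Cfsg.Agent.H962.SameOut
import Cfsg.Agent.H364.Reduce
import Cfsg.Agent.H364.PSUFour

/-!
# Groups with an isolated torus and the order of an exceptional group: the socle (helper962)
-/

set_option autoImplicit false

namespace Cfsg.Agent.H962.ExCore

open Subgroup Cfsg Cfsg.Agent.OrdDiv Cfsg.Lie
open Cfsg.Agent.H902 Cfsg.Agent.H902.Art Cfsg.Agent.H364 Cfsg.Agent.H364.Slack
open Cfsg.Agent.H962.IdSame Cfsg.Agent.H962.SameOut

universe u

/-- The structure of a group with an isolated torus of order `m`, `|G| / m ≡ n0`. -/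
theorem spec_struct {G : Type u} [Group G] [Finite G] {T : Subgroup G} {m n0 : ℕ} (h : Isol G T m) (hm : 1 < m)
    (h2 : ¬ 2 ∣ m) (hn0 : 0 < n0) (hn : ∀ r, r.Prime → r ∣ m → n0 < r ∧ Nat.card G / m ≡ n0 [MOD r]) :
    ∃ (K : Subgroup G) (_ : K.Normal), (Nat.card K).Coprime m ∧
      (∀ t, t.Prime → m ∣ t ^ (Nat.card K).factorization t - 1) ∧
      (Nat.card G = Nat.card K * (m * n0) ∨ ∃ H : Subgroup (G ⧸ K), H.Normal ∧ IsSimpleGroup H ∧
        (¬ ∀ a b : H, a * b = b * a) ∧ Nat.card K * (H.index * Nat.card H) = Nat.card G ∧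
        H.index ∣ Nat.card (Cfsg.Out H) ∧ m ∣ Nat.card H ∧ H.index ∣ n0 ∧ H.index < n0) := by
  obtain ⟨K, hK, n, hcop, hparts, hnr, hcase⟩ := h.struct hm h2
  have hnn : n = n0 := by
    obtain ⟨r, hr, hrm⟩ := Nat.exists_prime_and_dvd (by omega : m ≠ 1)
    obtain ⟨h3, h4⟩ := hnr r hr hrm
    obtain ⟨h5, h6⟩ := hn r hr hrm
    have h7 : n ≡ n0 [MOD r] := h4.symm.trans h6
    have h8 : n < r := by
      have := Nat.le_of_dvd (by have := hr.two_le; omega) h3
      have := hr.two_le
      omega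
    exact Nat.ModEq.eq_of_lt_of_lt h7 h8 h5
  subst hnn
  refine ⟨K, hK, hcop, hparts, ?_⟩
  rcases hcase with h3 | ⟨H, h3, h4, h5, h6, h7, n', h8, h9⟩
  · exact Or.inl h3
  · right
    have hGK : Nat.card K * Nat.card (G ⧸ K) = Nat.card G := by
      rw [← Subgroup.card_mul_index K, Subgroup.index_eq_card]
    refine ⟨H, h3, h4, h5, ?_, index_dvd_out H h5 h6, h7, ⟨n', by rw [← h9, mul_comm]⟩, ?_⟩
    · rw [mul_comm H.index, Subgroup.card_mul_index, hGK]
    · have hpos : 0 < H.index := Nat.pos_of_ne_zero (by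
        intro h0
        rw [h0, mul_zero] at h9
        omega)
      nlinarith

/-- **The case `p ∤ |K|`**: the simple factor has the order of `G`. -/
theorem zero_case {G : Type u} [Group G] [Finite G] {p f : ℕ} {Y : Sh} (hY : Art.Real Y p f (Nat.card G))
    (hE : IsExc Y) {A : ℕ} (hA : Nat.card G ≤ p ^ (f * A)) (K : Subgroup G) [K.Normal] (H : Subgroup (G ⧸ K))
    [H.Normal] [IsSimpleGroup H] (hHna : ¬ ∀ a b : H, a * b = b * a)
    (hHG : Nat.card K * (H.index * Nat.card H) = Nat.card G) (hout : H.index ∣ Nat.card (Cfsg.Out H))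
    (hpK : ¬ p ∣ Nat.card K) (hslack : cc p + f * A ≤ 3 * (f * NN Y - H.index.factorization p) +
      H.index.factorization p)
    (hrK : ∀ r : ℕ, r.Prime → orderOf (p : ZMod r) = f * DM Y → ¬ r ∣ Nat.card K)
    (hTF : Y = .G2 → ∀ g, f = 2 * g → H.index * Nat.card K = (p ^ g) ^ 2 + p ^ g + 1 → False) :
    Nat.card H = Nat.card G := by
  have hp := hY.hp
  have hK0 : Nat.card K ≠ 0 := Nat.card_pos.ne'
  have hH0 : Nat.card H ≠ 0 := Nat.card_pos.ne'
  have hI0 : H.index ≠ 0 := Subgroup.index_ne_zero_of_finite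
  set δ := H.index.factorization p with hδdef
  have hδ : (Nat.card H).factorization p + δ = (Nat.card G).factorization p := by
    rw [← hHG, Nat.factorization_mul hK0 (Nat.mul_ne_zero hI0 hH0), Finsupp.add_apply,
      Nat.factorization_eq_zero_of_not_dvd hpK, Nat.factorization_mul hI0 hH0, Finsupp.add_apply, hδdef]
    omega
  have hpI : p ^ δ ∣ H.index := Nat.ordProj_dvd _ _
  have hknown := Cfsg.Agent.S0000.result (G := H)
  have hlie : IsLieTypeChar p H := by
    rcases known_slack table hknown hHna hp with h | h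
    · exact h
    exfalso
    have h1 : H365.PPart.pt p (Nat.card H) = p ^ ((Nat.card G).factorization p - δ) := by
      rw [H365.PPart.pt]; congr 1; omega
    rw [h1] at h
    have h2 : Nat.card H * p ^ δ ≤ p ^ (f * A) := by
      have h3 : Nat.card H * p ^ δ ≤ Nat.card G := by
        calc Nat.card H * p ^ δ ≤ Nat.card H * H.index :=
              Nat.mul_le_mul_left _ (Nat.le_of_dvd (Nat.pos_of_ne_zero hI0) hpI)
          _ = H.index * Nat.card H := mul_comm _ _
          _ ≤ Nat.card K * (H.index * Nat.card H) := Nat.le_mul_of_pos_left _ (Nat.pos_of_ne_zero hK0)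
          _ = Nat.card G := hHG
      exact h3.trans hA
    have h3 := PSUFour.not_slack hp.two_le h h2
    have h5 : (Nat.card G).factorization p = f * NN Y := by
      have h1 := hY.P_self
      rw [← pow_mul] at h1
      exact Nat.pow_right_injective hp.two_le h1
    rw [h5] at h3
    omega
  obtain ⟨g, X, f', hg, hreal, hX⟩ := LieNam.lie_nam table hp hlie
  obtain ⟨c, hc1, hc2, hc3⟩ := OutLie.card_out hHna hg hreal hX
  have hI : OutC X p f' H.index := ⟨c, by rw [← hc1]; exact hout, hc2, hc3⟩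
  have heq : Nat.card H * H.index * Nat.card K = Nat.card G := by rw [← hHG]; ring
  rcases same_gen hX hY hE heq hI hpK hrK with ⟨rfl, rfl⟩ | ⟨rfl, rfl, rfl⟩
  · have h1 := hX.eq
    rw [← hY.eq] at h1
    exact Nat.eq_of_mul_eq_mul_left (Nat.pos_of_ne_zero hY.dd_ne) h1
  · exfalso
    exact hTF rfl f' rfl (tf4_g2 hX hY (by rw [← heq]; ring))

end Cfsg.Agent.H962.ExCore
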