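import Cfsg.Agent.H962.NumD4

/-!
# Numbers for `³D₄(q)`: the full case (helper962)
-/

set_option autoImplicit false

namespace Cfsg.Agent.H962.NumD4

open Cfsg Cfsg.Agent.OrdDiv Cfsg.Agent.H902 Cfsg.Agent.H902.Art Cfsg.Agent.H902.Lte Cfsg.Agent.H962.CycNum
  Cfsg.Agent.H992.TC
open Cfsg.Agent.H962.NumF4

universe u

variable {p f M q t : ℕ}

/-- the `t`-part of a number prime to `t` -/
theorem num_factor (hq : 1 ≤ q) : num .TD4 q = (q ^ 2 - 1) ^ 2 * ((q ^ 2 + q + 1) ^ 2 * ((q ^ 2 - q + 1) ^ 2 * t12 q)) := by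
  have hqq : q ≤ q ^ 2 := Nat.le_self_pow (by norm_num) q
  show (q ^ 2 - 1) * (q ^ 6 - 1) * (q ^ 8 + q ^ 4 + 1) = _
  zify
  push_cast [sub_cast hq, t12_cast hq, Nat.cast_sub hqq]
  ring

theorem P_sq {a : ℕ} (ha : a ≠ 0) : P t (a ^ 2) = P t a ^ 2 := by
  rw [sq, P_mul ha ha, sq]

theorem P_num (hq : 2 ≤ q) : P t (num .TD4 q) = P t (q ^ 2 - 1) ^ 2 * (P t (q ^ 2 + q + 1) ^ 2 *
    (P t (q ^ 2 - q + 1) ^ 2 * P t (t12 q))) := by
  have hqq : q ≤ q ^ 2 := Nat.le_self_pow (by norm_num) q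
  have h4 : 4 ≤ q ^ 2 := by nlinarith
  have h0 : q ^ 2 - 1 ≠ 0 := by omega
  have h1 : q ^ 2 + q + 1 ≠ 0 := by omega
  have h2 : q ^ 2 - q + 1 ≠ 0 := by omega
  have h3 : t12 q ≠ 0 := by rw [t12]; omega
  rw [num_factor (by omega), P_mul (pow_ne_zero 2 h0) (mul_ne_zero (pow_ne_zero 2 h1) (mul_ne_zero (pow_ne_zero 2 h2) h3)),
    P_mul (pow_ne_zero 2 h1) (mul_ne_zero (pow_ne_zero 2 h2) h3), P_mul (pow_ne_zero 2 h2) h3, P_sq h0, P_sq h1, P_sq h2]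

/-- **`t ≥ 5`** : only one of the factors is divisible by `t` -/
theorem P_five (hq : 2 ≤ q) (ht : t.Prime) (ht2 : t ≠ 2) (ht3 : t ≠ 3) :
    P t (num .TD4 q) ≤ (q + 1) ^ 2 ∨ (t ∣ q ^ 2 + q + 1 ∧ P t (num .TD4 q) ≤ (q ^ 2 + q + 1) ^ 2) ∨
      P t (num .TD4 q) ≤ (q ^ 2 - q + 1) ^ 2 ∨ (t ∣ t12 q ∧ P t (num .TD4 q) ≤ t12 q) := by
  have : Fact t.Prime := ⟨ht⟩
  have hqq : q ≤ q ^ 2 := Nat.le_self_pow (by norm_num) q
  have h4 : 4 ≤ q ^ 2 := by nlinarith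
  have z1 : t ∣ q ^ 2 - 1 → (q : ZMod t) ^ 2 = 1 := (dvd_sub_iff (by omega) 2).1
  have z3 : t ∣ q ^ 2 + q + 1 → orderOf (q : ZMod t) = 3 := order_three ht ht3
  have z6 : t ∣ q ^ 2 - q + 1 → orderOf (q : ZMod t) = 6 := fun h => by
    have hz : (q : ZMod t) ^ 2 - (q : ZMod t) + 1 = 0 := by
      have := (ZMod.natCast_eq_zero_iff (q ^ 2 - q + 1) t).2 h
      rw [Nat.cast_add, Nat.cast_sub hqq] at this
      push_cast at this
      exact this
    exact o6 hz (two_ne ht2) (three_ne ht3)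
  have z12 : t ∣ t12 q → orderOf (q : ZMod t) = 12 := t12_order (by omega) ht
  rw [P_num hq]
  have hone : ∀ a, ¬ t ∣ a → P t a = 1 := fun a h => P_eq_one h
  by_cases h1 : t ∣ q ^ 2 - 1
  · have e := z1 h1
    have n3 : ¬ t ∣ q ^ 2 + q + 1 := fun h => pow_ne_of_order (z3 h) (show ¬ 3 ∣ 2 by norm_num) e
    have n6 : ¬ t ∣ q ^ 2 - q + 1 := fun h => pow_ne_of_order (z6 h) (show ¬ 6 ∣ 2 by norm_num) e
    have n12 : ¬ t ∣ t12 q := fun h => pow_ne_of_order (z12 h) (show ¬ 12 ∣ 2 by norm_num) e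
    left
    rw [hone _ n3, hone _ n6, hone _ n12]
    norm_num
    have h5 := P_sq_sub_one_le ht ht2 hq (le_refl 1)
    rw [mul_one, pow_one] at h5
    exact Nat.pow_le_pow_left h5 2
  rw [hone _ h1]
  by_cases h3 : t ∣ q ^ 2 + q + 1
  · have e := z3 h3
    have n6 : ¬ t ∣ q ^ 2 - q + 1 := fun h => by have := z6 h; omega
    have n12 : ¬ t ∣ t12 q := fun h => by have := z12 h; omega
    right; left
    refine ⟨h3, ?_⟩
    rw [hone _ n6, hone _ n12]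
    norm_num
    exact Nat.pow_le_pow_left (P_le (by omega)) 2
  rw [hone _ h3]
  by_cases h6 : t ∣ q ^ 2 - q + 1
  · have e := z6 h6
    have n12 : ¬ t ∣ t12 q := fun h => by have := z12 h; omega
    right; right; left
    rw [hone _ n12]
    norm_num
    exact Nat.pow_le_pow_left (P_le (by omega)) 2
  rw [hone _ h6]
  by_cases h12 : t ∣ t12 q
  · right; right; right
    refine ⟨h12, ?_⟩
    norm_num
    exact P_le (by rw [t12]; omega)
  · left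
    rw [hone _ h12]
    norm_num
    exact Nat.one_le_pow _ _ (by omega)

theorem P_three (hq : 2 ≤ q) (h3 : ¬ 3 ∣ q) : P 3 (num .TD4 q) ≤ 9 * (q + 1) ^ 2 := by
  have hqq : q ≤ q ^ 2 := Nat.le_self_pow (by norm_num) q
  have h4 : 4 ≤ q ^ 2 := by nlinarith
  rw [P_num hq]
  have h5 := P_sq_sub_one_le (r := 3) Nat.prime_three (by norm_num) hq (le_refl 1)
  rw [mul_one, pow_one] at h5
  have n12 : P 3 (t12 q) = 1 := P_eq_one fun h => (t12_ne (by omega) h).2 rfl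
  have h9 : P 3 ((q ^ 2 + q + 1) * (q ^ 2 - q + 1)) ≤ 3 := by
    have e : (q ^ 2 + q + 1) * (q ^ 2 - q + 1) = q ^ 4 + q ^ 2 + 1 := by
      zify
      push_cast [Nat.cast_sub hqq]
      ring
    rw [e]
    have h9 : ¬ 3 ^ 2 ∣ q ^ 4 + q ^ 2 + 1 := by
      intro h
      have h1 : (q ^ 4 + q ^ 2 + 1) % 9 = 0 := Nat.mod_eq_zero_of_dvd h
      have h2 : (q ^ 4 + q ^ 2 + 1) % 9 = ((q % 9) ^ 4 + (q % 9) ^ 2 + 1) % 9 := by
        rw [Nat.add_mod, Nat.add_mod (q ^ 4) (q ^ 2), Nat.pow_mod, Nat.pow_mod q 2]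
        simp [Nat.add_mod]
      rw [h2] at h1
      have h5 : q % 9 < 9 := Nat.mod_lt _ (by norm_num)
      have h6 : q % 9 % 3 ≠ 0 := by omega
      generalize q % 9 = x at h1 h5 h6
      interval_cases x <;> omega
    rw [P]
    calc 3 ^ (q ^ 4 + q ^ 2 + 1).factorization 3 ≤ 3 ^ 1 := by
          apply Nat.pow_le_pow_right (by norm_num)
          by_contra hcon
          exact h9 ((Nat.prime_three.pow_dvd_iff_le_factorization (by omega)).2 (by omega))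
      _ = 3 := by norm_num
  rw [P_mul (by omega) (by omega)] at h9
  rw [n12, mul_one]
  calc P 3 (q ^ 2 - 1) ^ 2 * (P 3 (q ^ 2 + q + 1) ^ 2 * P 3 (q ^ 2 - q + 1) ^ 2)
      = P 3 (q ^ 2 - 1) ^ 2 * (P 3 (q ^ 2 + q + 1) * P 3 (q ^ 2 - q + 1)) ^ 2 := by ring
    _ ≤ (q + 1) ^ 2 * 3 ^ 2 := Nat.mul_le_mul (Nat.pow_le_pow_left h5 2) (Nat.pow_le_pow_left h9 2)
    _ = _ := by ring

theorem P_two (hq : 3 ≤ q) (hodd : Odd q) : P 2 (num .TD4 q) ≤ 4 * (q + 1) ^ 2 := by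
  have hqq : q ≤ q ^ 2 := Nat.le_self_pow (by norm_num) q
  rw [P_num (by omega)]
  have h5 := P_two_sq_sub_one_le hq hodd
  have n3 : P 2 (q ^ 2 + q + 1) = 1 := P_eq_one phi3_odd
  have n6 : P 2 (q ^ 2 - q + 1) = 1 := P_eq_one fun h => by
    have h2 : 2 ∣ q * (q + 1) := (Nat.even_mul_succ_self q).two_dvd
    have h3 : q ^ 2 = q * (q + 1) - q := by
      rw [mul_add, mul_one, Nat.add_sub_cancel, sq]
    have h4 : q ≤ q * (q + 1) := Nat.le_mul_of_pos_right _ (by omega)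
    omega
  have n12 : P 2 (t12 q) = 1 := P_eq_one fun h => (t12_ne (by omega) h).1 rfl
  rw [n3, n6, n12]
  norm_num
  calc P 2 (q ^ 2 - 1) ^ 2 ≤ (2 * (q + 1)) ^ 2 := Nat.pow_le_pow_left h5 2
    _ = _ := by ring

theorem P_le_of_dvd (h : Art.Real .TD4 p f M) {t v : ℕ} (ht : t.Prime) (htp : t ≠ p) (hv : t ^ v ∣ M) :
    t ^ v ≤ P t (num .TD4 (p ^ f)) := by
  refine le_trans ?_ (h.P_other_le ht htp)
  exact Nat.pow_le_pow_right ht.pos ((ht.pow_dvd_iff_le_factorization h.M_ne).1 hv)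

/-- **Elimination**, `p` odd. -/
theorem elim (h : Art.Real .TD4 p f M) (hp2 : p ≠ 2) {t v : ℕ} (ht : t.Prime) (htp : t ≠ p)
    (hv : t ^ v ∣ M) (hm : t12 (p ^ f) ∣ t ^ v - 1) : v = 0 := by
  by_cases h3 : t ≠ 3 ∧ t ∣ (p ^ f) ^ 2 + p ^ f + 1
  · exact three_zero h ht h3.1 h3.2 hv hm
  have hle := P_le_of_dvd h ht htp hv
  have htq := h.not_dvd_q ht htp
  have hodd : Odd (p ^ f) := (h.hp.odd_of_ne_two hp2).pow
  have hq := h.q_ge
  generalize p ^ f = q at hq hle htq hodd hm h3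
  have hq3 : 3 ≤ q := by obtain ⟨k, hk⟩ := hodd; omega
  have h42 := sq_le (q := q) (by omega)
  have hqq : q ≤ q ^ 2 := Nat.le_self_pow (by norm_num) q
  refine pow_eq_one_of_small hm (hle.trans ?_) ht
  have e2 : q ^ 2 = q * q := sq q
  have e4 : q ^ 4 = q ^ 2 * q ^ 2 := by ring
  have h9 : 9 ≤ q ^ 2 := by nlinarith
  have h94 : 9 * q ^ 2 ≤ q ^ 4 := by rw [e4]; exact Nat.mul_le_mul_right _ h9
  by_cases ht2 : t = 2
  · subst ht2
    refine (P_two hq3 hodd).trans ?_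
    rw [t12]
    have h6 : 3 * q ≤ q ^ 2 := by rw [e2]; exact Nat.mul_le_mul_right _ hq3
    have e : 4 * (q + 1) ^ 2 = 4 * q ^ 2 + 8 * q + 4 := by ring
    rw [e]
    omega
  by_cases ht3 : t = 3
  · subst ht3
    have hq5 : 5 ≤ q := by
      obtain ⟨k, hk⟩ := hodd
      by_contra hcon
      have : q = 3 := by omega
      rw [this] at htq
      exact htq (dvd_refl 3)
    refine (P_three (by omega) htq).trans ?_
    rw [t12]
    have h25 : 25 ≤ q ^ 2 := by nlinarith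
    have h94 : 25 * q ^ 2 ≤ q ^ 4 := by rw [e4]; exact Nat.mul_le_mul_right _ h25
    have h6 : 5 * q ≤ q ^ 2 := by rw [e2]; exact Nat.mul_le_mul_right _ hq5
    have e : 9 * (q + 1) ^ 2 = 9 * q ^ 2 + 18 * q + 9 := by ring
    rw [e]
    omega
  rcases P_five (by omega) ht ht2 ht3 with h1 | ⟨h1, -⟩ | h1 | ⟨-, h1⟩
  · refine h1.trans ?_
    rw [t12]
    have h6 : 3 * q ≤ q ^ 2 := by rw [e2]; exact Nat.mul_le_mul_right _ hq3
    have e : (q + 1) ^ 2 = q ^ 2 + 2 * q + 1 := by ring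
    rw [e]
    omega
  · exact absurd ⟨ht3, h1⟩ h3
  · refine h1.trans ?_
    have hle2 : q ^ 2 - q + 1 ≤ q ^ 2 := by omega
    have : ((q ^ 2 - q + 1) ^ 2 : ℕ) + (2 * q * (q - 1) ^ 2) = t12 q := by
      zify
      push_cast [t12_cast (q := q) (by omega), Nat.cast_sub hqq, Nat.cast_sub (show 1 ≤ q by omega)]
      ring
    omega
  · exact h1

/-- **Cross characteristic.** -/
theorem cross (h : Art.Real .TD4 p f M) (hp2 : p ≠ 2) {X : Sh} {t g S : ℕ} (hX : Art.Real X t g S)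
    (htp : t ≠ p) {c : ℕ} (hκ : c * S = num .TD4 (p ^ f)) (hc : c ≤ 2) : False := by
  have hodd : Odd (p ^ f) := (h.hp.odd_of_ne_two hp2).pow
  have htq := h.not_dvd_q hX.hp htp
  have hn0 := h.num_ne
  have ht := hX.hp
  have hlt := hX.lt_cube
  have hq2 := h.q_ge
  generalize p ^ f = q at hκ htq hodd hn0 hq2
  have hq3 : 3 ≤ q := by obtain ⟨k, hk⟩ := hodd; omega
  have hqq : q ≤ q ^ 2 := Nat.le_self_pow (by norm_num) q
  have h42 := sq_le (q := q) (by omega)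
  have hP : P t S ≤ P t (num .TD4 q) := P_mono ht hn0 ⟨c, by rw [← hκ]; ring⟩
  have h1 : num .TD4 q ≤ 2 * P t (num .TD4 q) ^ 3 := by
    calc num .TD4 q = c * S := hκ.symm
      _ ≤ 2 * P t S ^ 3 := Nat.mul_le_mul hc hlt.le
      _ ≤ _ := Nat.mul_le_mul_left _ (Nat.pow_le_pow_left hP 3)
  have e2 : q ^ 2 = q * q := sq q
  have e4 : q ^ 4 = q ^ 2 * q ^ 2 := by ring
  have h9 : 9 ≤ q ^ 2 := by nlinarith
  -- the bounds
  have hB : P t (num .TD4 q) ≤ (q ^ 2 + q + 1) ^ 2 ∨ (5 ≤ q ∧ P t (num .TD4 q) ≤ 9 * (q + 1) ^ 2) ∨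
      P t (num .TD4 q) ≤ 4 * (q + 1) ^ 2 := by
    by_cases ht2 : t = 2
    · subst ht2
      exact Or.inr (Or.inr (P_two hq3 hodd))
    by_cases ht3 : t = 3
    · subst ht3
      right; left
      refine ⟨?_, P_three (by omega) htq⟩
      obtain ⟨k, hk⟩ := hodd
      by_contra hcon
      have : q = 3 := by omega
      rw [this] at htq
      exact htq (dvd_refl 3)
    left
    rcases P_five (by omega) ht ht2 ht3 with h1 | ⟨-, h1⟩ | h1 | ⟨-, h1⟩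
    · exact h1.trans (Nat.pow_le_pow_left (by omega) 2)
    · exact h1
    · exact h1.trans (Nat.pow_le_pow_left (by omega) 2)
    · refine h1.trans ?_
      have e : (q ^ 2 + q + 1) ^ 2 = q ^ 4 + 2 * q ^ 3 + 3 * q ^ 2 + 2 * q + 1 := by ring
      rw [e, t12]; omega
  by_cases hq3' : q = 3
  · subst hq3'
    have hn : num .TD4 3 = 38688832 := by decide
    rw [hn] at h1 hB
    rcases hB with h | ⟨h, -⟩ | h
    · have := Nat.pow_le_pow_left h 3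
      norm_num at this
      omega
    · omega
    · have := Nat.pow_le_pow_left h 3
      norm_num at this
      omega
  have hq5 : 5 ≤ q := by obtain ⟨k, hk⟩ := hodd; omega
  have h25 : 25 ≤ q ^ 2 := by nlinarith
  have h56 : 5 * (q + 1) ≤ 6 * q := by omega
  have h31 : 25 * (q ^ 2 + q + 1) ≤ 31 * q ^ 2 := by nlinarith
  have hP6 : 625 * P t (num .TD4 q) ≤ 961 * q ^ 4 := by
    have a1 : 625 * (q ^ 2 + q + 1) ^ 2 ≤ 961 * q ^ 4 := by
      calc 625 * (q ^ 2 + q + 1) ^ 2 = (25 * (q ^ 2 + q + 1)) ^ 2 := by ring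
        _ ≤ (31 * q ^ 2) ^ 2 := Nat.pow_le_pow_left h31 2
        _ = _ := by ring
    have a2 : 625 * (9 * (q + 1) ^ 2) ≤ 961 * q ^ 4 := by
      calc 625 * (9 * (q + 1) ^ 2) = 225 * (5 * (q + 1)) ^ 2 := by ring
        _ ≤ 225 * (6 * q) ^ 2 := Nat.mul_le_mul_left _ (Nat.pow_le_pow_left h56 2)
        _ = 324 * 25 * q ^ 2 := by ring
        _ ≤ 961 * q ^ 2 * q ^ 2 := by
          have : 324 * 25 ≤ 961 * q ^ 2 := by omega
          exact Nat.mul_le_mul_right _ this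
        _ = _ := by ring
    rcases hB with h | ⟨-, h⟩ | h
    · exact (Nat.mul_le_mul_left _ h).trans a1
    · exact (Nat.mul_le_mul_left _ h).trans a2
    · refine (Nat.mul_le_mul_left _ h).trans (le_trans ?_ a2)
      exact Nat.mul_le_mul_left _ (Nat.mul_le_mul_right _ (by norm_num))
  have hn : 24 * 15624 * q ^ 16 ≤ 25 * 15625 * num .TD4 q := by
    have b1 : 24 * q ^ 2 ≤ 25 * (q ^ 2 - 1) := by omega
    have b2 : 15624 * q ^ 6 ≤ 15625 * (q ^ 6 - 1) := by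
      have : 5 ^ 6 ≤ q ^ 6 := Nat.pow_le_pow_left hq5 6
      norm_num at this
      omega
    show 24 * 15624 * q ^ 16 ≤ 25 * 15625 * ((q ^ 2 - 1) * (q ^ 6 - 1) * (q ^ 8 + q ^ 4 + 1))
    calc 24 * 15624 * q ^ 16 = (24 * q ^ 2) * (15624 * q ^ 6) * q ^ 8 := by ring
      _ ≤ (25 * (q ^ 2 - 1)) * (15625 * (q ^ 6 - 1)) * (q ^ 8 + q ^ 4 + 1) :=
        Nat.mul_le_mul (Nat.mul_le_mul b1 b2) (by omega)
      _ = _ := by ring
  have h2 : 625 ^ 3 * (24 * 15624) * q ^ 16 ≤ 25 * 15625 * 2 * 961 ^ 3 * q ^ 12 := by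
    calc 625 ^ 3 * (24 * 15624) * q ^ 16 = 625 ^ 3 * (24 * 15624 * q ^ 16) := by ring
      _ ≤ 625 ^ 3 * (25 * 15625 * num .TD4 q) := Nat.mul_le_mul_left _ hn
      _ ≤ 625 ^ 3 * (25 * 15625 * (2 * P t (num .TD4 q) ^ 3)) :=
        Nat.mul_le_mul_left _ (Nat.mul_le_mul_left _ h1)
      _ = 25 * 15625 * 2 * (625 * P t (num .TD4 q)) ^ 3 := by ring
      _ ≤ 25 * 15625 * 2 * (961 * q ^ 4) ^ 3 := Nat.mul_le_mul_left _ (Nat.pow_le_pow_left hP6 3)
      _ = _ := by ring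
  have h3 : 625 ^ 3 * (24 * 15624) * q ^ 16 = (625 ^ 3 * (24 * 15624) * q ^ 4) * q ^ 12 := by ring
  rw [h3] at h2
  have h4 := Nat.le_of_mul_le_mul_right h2 (pow_pos (by omega : 0 < q) _)
  have h5 : 625 ^ 3 * (24 * 15624) * 5 ^ 4 ≤ 625 ^ 3 * (24 * 15624) * q ^ 4 :=
    Nat.mul_le_mul_left _ (Nat.pow_le_pow_left hq5 4)
  have h6 := h5.trans h4
  norm_num at h6

theorem small_valid : valid [(2, 12), (3, 4), (7, 2), (13, 1)] (2 ^ 12 * num .TD4 2) = true := by decide +kernel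

/-- `q = 2` -/
theorem q_two (T : OrderTable.{u}) {S : Type u} [Group S] (hk : IsKnownSimple' S)
    (hna : ¬ ∀ a b : S, a * b = b * a) (hd : Nat.card S ∣ 2 ^ 12 * num .TD4 2) (h2 : 2 ^ 11 ∣ Nat.card S)
    (h13 : 13 ∣ Nat.card S) : Nat.card S = 2 ^ 12 * num .TD4 2 := by
  obtain ⟨g, hg, hr, hcard⟩ := exists_good T hk hna small_valid hd
  have hchk : ((cands [(2, 12), (3, 4), (7, 2), (13, 1)] (2 ^ 12 * num .TD4 2)).all fun g =>
      Nat.beq (ordN g) (2 ^ 12 * num .TD4 2) || !(Nat.beq (ordN g % (2 ^ 11 * 13)) 0)) = true := by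
    decide +kernel
  have h1 := List.all_eq_true.1 hchk g hg
  rw [Bool.or_eq_true] at h1
  rw [← hcard] at h1
  rcases h1 with h1 | h1
  · exact Nat.eq_of_beq_eq_true h1
  · exfalso
    have h3 : 2 ^ 11 * 13 ∣ Nat.card S := Nat.Coprime.mul_dvd_of_dvd_of_dvd (by norm_num) h2 h13
    rw [Nat.mod_eq_zero_of_dvd h3] at h1
    exact absurd h1 (by decide)

end Cfsg.Agent.H962.NumD4
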