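import Cfsg.Agent.H962.ExF4
import Cfsg.Agent.H962.NumD4b

/-!
# A finite group with the order and the element orders of `³D₄(q)` (helper962)
-/

set_option autoImplicit false

namespace Cfsg.Agent.H962.ExD4

open Subgroup Cfsg Cfsg.Agent.OrdDiv Cfsg.Lie
open Cfsg.Agent.H902 Cfsg.Agent.H902.Art Cfsg.Agent.H364 Cfsg.Agent.H364.Slack
open Cfsg.Agent.H962 Cfsg.Agent.H962.IdSame Cfsg.Agent.H962.CycNum Cfsg.Agent.H962.ExIsol
open Cfsg.Agent.H962.NumF4 (t12 t12_cast t12_gt t12_coprime_six t12_ne t12_order dvd_t12 t12_dvd_spor)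
open Cfsg.Agent.H962.ExF4 (order_q order_dvd_a)

universe u

theorem td4_real (F : Type) [Field F] [Fintype F] {p f : ℕ} (hp : p.Prime) (hf : 1 ≤ f)
    (hF : Fintype.card F = (p ^ f) ^ 3) : Art.Real .TD4 p f (Nat.card ↥(twistedD4 F (p ^ f))) := by
  refine ⟨hp, hf, trivial, ?_⟩
  rw [table.{0}.td4 F _ ((isPrimePow_nat_iff _).2 ⟨p, f, hp, hf, rfl⟩) hF]
  change 1 * _ = (p ^ f) ^ 12 * (_ * _ * _)
  ring

theorem card_le {p f M : ℕ} (hY : Art.Real .TD4 p f M) : M ≤ p ^ (f * 28) := by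
  have hq := hY.q_ge
  have h2 : Art.num .TD4 (p ^ f) ≤ (p ^ f) ^ 16 := by
    change ((p ^ f) ^ 2 - 1) * ((p ^ f) ^ 6 - 1) * ((p ^ f) ^ 8 + (p ^ f) ^ 4 + 1) ≤ _
    generalize p ^ f = q at hq
    have h1 : (q ^ 2 - 1) * (q ^ 8 + q ^ 4 + 1) ≤ q ^ 10 := by
      obtain ⟨c, hc⟩ := Nat.exists_eq_add_of_le (Nat.one_le_pow 2 q (by omega))
      have e8 : q ^ 8 = (1 + c) ^ 4 := by rw [← hc]; ring
      have e4 : q ^ 4 = (1 + c) ^ 2 := by rw [← hc]; ring
      have e10 : q ^ 10 = (1 + c) ^ 5 := by rw [← hc]; ring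
      rw [e8, e4, e10, hc, Nat.add_sub_cancel_left]
      nlinarith [Nat.zero_le (c ^ 5), Nat.zero_le (c ^ 4), Nat.zero_le (c ^ 3), Nat.zero_le (c ^ 2)]
    calc (q ^ 2 - 1) * (q ^ 6 - 1) * (q ^ 8 + q ^ 4 + 1) = ((q ^ 2 - 1) * (q ^ 8 + q ^ 4 + 1)) * (q ^ 6 - 1) := by ring
      _ ≤ q ^ 10 * q ^ 6 := Nat.mul_le_mul h1 (Nat.sub_le _ _)
      _ = _ := by ring
  calc M ≤ (p ^ f) ^ 12 * Art.num .TD4 (p ^ f) := hY.M_le
    _ ≤ (p ^ f) ^ 12 * (p ^ f) ^ 16 := Nat.mul_le_mul_left _ h2
    _ = _ := by rw [← pow_add, ← pow_mul]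

/-- **The simple factor has the order of `G`.** -/
theorem core {G : Type u} [Group G] [Finite G] {F : Type} [Field F] [Fintype F] {p f : ℕ}
    (hF : Fintype.card F = (p ^ f) ^ 3) (hY : Art.Real .TD4 p f (Nat.card G))
    (hcard : Nat.card G = Nat.card ↥(twistedD4 F (p ^ f)))
    (hs1 : ∀ x : G, ∃ y : ↥(twistedD4 F (p ^ f)), orderOf y = orderOf x)
    (hs2 : ∀ y : ↥(twistedD4 F (p ^ f)), ∃ x : G, orderOf x = orderOf y) :
    ∃ (K : Subgroup G) (_ : K.Normal) (H : Subgroup (G ⧸ K)), IsSimpleGroup H ∧ Nat.card H = Nat.card G := by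
  have hp := hY.hp
  have hf := hY.hf
  have hq2 := hY.q_ge
  have hG0 : Nat.card G ≠ 0 := Nat.card_pos.ne'
  have hfinM : Finite ↥(twistedD4 F (p ^ f)) := Nat.finite_of_card_ne_zero (by rw [← hcard]; exact hG0)
  -- the isolated torus
  obtain ⟨T0, hT0⟩ := isol_of_exact (H129.CycT.exact_tD4_12 (F := F)
    ((isPrimePow_nat_iff _).2 ⟨p, f, hp, hf, rfl⟩) hF (t12_cast (q := p ^ f) (by omega)))
  obtain ⟨T, hT⟩ := isol_transfer hs1 hs2 hcard hT0
  have hm1 : 1 < t12 (p ^ f) := by
    have := t12_gt hq2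
    have : 1 ≤ (p ^ f) ^ 2 := Nat.one_le_pow _ _ (by omega)
    omega
  have hm6 := t12_coprime_six (q := p ^ f) (by omega)
  have h2m : ¬ 2 ∣ t12 (p ^ f) := fun h => (t12_ne (by omega) h).1 rfl
  have h3m : ¬ 3 ∣ t12 (p ^ f) := fun h => (t12_ne (by omega) h).2 rfl
  have hpm := NumD4.p_not_dvd hY
  obtain ⟨K, hK, hKm, hparts, hcase⟩ := ExCore.spec_struct hT hm1 h2m (n0 := 4) (by norm_num)
    fun r hr hrm => NumD4.t12_mod hY hr hrm
  have hKG : Nat.card K ∣ Nat.card G := Subgroup.card_subgroup_dvd_card K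
  have hK0 : Nat.card K ≠ 0 := Nat.card_pos.ne'
  -- the primes of order 12 f
  obtain ⟨r, hr, hrp, hro⟩ := SameOut.exists_ppd hp (n := f * 12) (by omega) (fun h => by omega)
  have hrq := order_q hf hro
  have hrm : r ∣ t12 (p ^ f) := by
    have : Fact r.Prime := ⟨hr⟩
    exact dvd_t12 (by omega) (z12 (pow_eq_of_order hrq) (pow_ne_of_order hrq (by norm_num))
      (pow_ne_of_order hrq (by norm_num)))
  have hrG : r ∣ Nat.card G := hY.dvd_of_order_DM hr hro (by show 3 ≤ f * 12; omega)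
  have hrK : ¬ r ∣ Nat.card K := fun h => by
    have := Nat.dvd_gcd h hrm
    rw [hKm] at this
    exact hr.one_lt.ne' (Nat.dvd_one.1 this)
  have hEr : NoEdge G r p := hT.edge r p hr hp hrm hpm
  set a := (Nat.card K).factorization p with hadef
  have ha12 : f * 12 ∣ a := order_dvd_a K hp hr hrp hro hrG hrK hEr
  have hpG : (Nat.card G).factorization p = f * 12 := by
    have h1 := hY.P_self
    rw [← pow_mul] at h1
    exact Nat.pow_right_injective hp.two_le h1
  have hale : a ≤ f * 12 := by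
    rw [← hpG, hadef]
    exact (Nat.factorization_le_iff_dvd hK0 hG0).2 hKG p
  -- a prime of `q² + q + 1`
  obtain ⟨s, hs, hs3, hsd⟩ := NumD4.exists_three hq2
  have hsK : ¬ s ∣ Nat.card K := fun h => (hs.factorization_pos_of_dvd hK0 h).ne'
    (NumD4.three_zero hY hs hs3 hsd ((Nat.ordProj_dvd _ _).trans hKG) (hparts s hs))
  -- the simple case
  rcases hcase with hFrob | ⟨H, hHn, hHs, hHna, hHG, hout, hmH, hidx, hidxlt⟩
  · exfalso
    have hsG : s ∣ Nat.card G := by
      rw [NumD4.M_eq hY]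
      refine Dvd.dvd.mul_left (Dvd.dvd.mul_left ?_ _) _
      have e : (p ^ f) ^ 8 + (p ^ f) ^ 4 + 1 = ((p ^ f) ^ 2 + p ^ f + 1) * (((p ^ f) ^ 2 - p ^ f + 1) *
          t12 (p ^ f)) := by
        have hqq : p ^ f ≤ (p ^ f) ^ 2 := Nat.le_self_pow (by norm_num) _
        zify
        push_cast [t12_cast (q := p ^ f) (by omega), Nat.cast_sub hqq]
        ring
      rw [e]
      exact Dvd.dvd.mul_right hsd _
    rw [hFrob] at hsG
    rcases hs.dvd_mul.1 hsG with h | h
    · exact hsK h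
    · rcases hs.dvd_mul.1 h with h | h
      · have h1 := t12_order (by omega) hs h
        have h2 := NumD4.order_three hs hs3 hsd
        omega
      · have h5 : s ∣ 2 ^ 2 := h
        have h6 := (Nat.prime_dvd_prime_iff_eq hs Nat.prime_two).1 (hs.dvd_of_dvd_pow h5)
        subst h6
        exact NumD4.phi3_odd hsd
  refine ⟨K, hK, H, hHs, ?_⟩
  have hH0 : Nat.card H ≠ 0 := Nat.card_pos.ne'
  have hI0 : H.index ≠ 0 := Subgroup.index_ne_zero_of_finite
  have hIle : H.index ≤ 2 := by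
    obtain ⟨k, hk⟩ := hidx
    have hk2 : 2 ≤ k := by
      by_contra hcon
      have : k = 0 ∨ k = 1 := by omega
      rcases this with rfl | rfl
      · omega
      · rw [mul_one] at hk; omega
    nlinarith
  have hHdG : Nat.card H ∣ Nat.card G := by
    rw [← hHG]; exact (Dvd.intro_left _ rfl).trans (Dvd.intro_left _ rfl)
  have ha : a = 0 ∨ a = f * 12 := by
    obtain ⟨k, hk⟩ := ha12
    rcases Nat.eq_zero_or_pos k with rfl | hk0
    · left; rw [hk, mul_zero]
    · right
      have : f * 12 * 1 ≤ f * 12 * k := Nat.mul_le_mul_left _ hk0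
      omega
  have hIfac : H.index.factorization p ≤ 1 ∧ (p ≠ 2 → H.index.factorization p = 0) := by
    constructor
    · by_contra hcon
      have h2 : p ^ 2 ∣ H.index := (hp.pow_dvd_iff_le_factorization hI0).2 (by omega)
      have h3 := Nat.le_of_dvd (Nat.pos_of_ne_zero hI0) h2
      have h4 : 2 ^ 2 ≤ p ^ 2 := Nat.pow_le_pow_left hp.two_le 2
      omega
    · intro hp2
      apply Nat.factorization_eq_zero_of_not_dvd
      intro h
      have h3 := Nat.le_of_dvd (Nat.pos_of_ne_zero hI0) h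
      have := hp.two_le
      omega
  rcases ha with ha | ha
  · -- `p ∤ |K|`
    have hpK : ¬ p ∣ Nat.card K := fun h => (hp.factorization_pos_of_dvd hK0 h).ne' ha
    by_cases hq2' : p ^ f = 2
    · have hp2 : p = 2 := by
        have h1 : p ∣ 2 := hq2' ▸ dvd_pow_self p (by omega)
        exact (Nat.prime_dvd_prime_iff_eq hp Nat.prime_two).1 h1
      have hM := NumD4.M_eq hY
      rw [hq2'] at hM
      have hM' : Nat.card G = 2 ^ 12 * num .TD4 2 := hM
      rw [hM']
      refine NumD4.q_two table (Cfsg.Agent.S0000.result (G := H)) hHna (hM' ▸ hHdG) ?_ ?_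
      · have hf1 : f = 1 := by
          by_contra hne
          have h22 : 2 ^ 2 ≤ p ^ f := by
            rw [hp2]
            exact Nat.pow_le_pow_right (by norm_num) (by omega)
          omega
        have h1 : (Nat.card H).factorization 2 + H.index.factorization 2 = 12 := by
          subst hp2
          subst hf1
          have h2 := hpG
          rw [← hHG, Nat.factorization_mul hK0 (Nat.mul_ne_zero hI0 hH0), Finsupp.add_apply,
            Nat.factorization_eq_zero_of_not_dvd hpK, Nat.factorization_mul hI0 hH0, Finsupp.add_apply] at h2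
          omega
        have h3 := hIfac.1
        rw [hp2] at h3
        exact (Nat.prime_two.pow_dvd_iff_le_factorization hH0).2 (by omega)
      · rw [hq2'] at hmH
        exact hmH
    refine ExCore.zero_case hY .TD4 (A := 28) (card_le hY) K H hHna hHG hout hpK ?_ ?_ (fun h => by cases h)
    · show cc p + f * 28 ≤ 3 * (f * 12 - _) + _
      have hi := hIfac.1
      unfold cc
      split_ifs with h2 h3
      · have hf2 : 2 ≤ f := by
          by_contra hcon
          have : f = 1 := by omega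
          apply hq2'
          rw [this, h2]
          norm_num
        omega
      · have hj := hIfac.2 h2
        omega
      · have hj := hIfac.2 h2
        omega
    · intro t ht hto htK
      have htq := order_q hf hto
      have : Fact t.Prime := ⟨ht⟩
      have htm : t ∣ t12 (p ^ f) := dvd_t12 (by omega) (z12 (pow_eq_of_order htq)
        (pow_ne_of_order htq (show ¬ 12 ∣ 6 by norm_num)) (pow_ne_of_order htq (show ¬ 12 ∣ 4 by norm_num)))
      have := Nat.dvd_gcd htK htm
      rw [hKm] at this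
      exact ht.one_lt.ne' (Nat.dvd_one.1 this)
  · -- the full case
    exfalso
    have hpIH : ¬ p ∣ H.index * Nat.card H := by
      intro h
      have h1 : p ^ (a + 1) ∣ Nat.card G := by
        rw [← hHG, pow_succ]
        exact Nat.mul_dvd_mul (Nat.ordProj_dvd _ _) h
      have h2 := (hp.pow_dvd_iff_le_factorization hG0).1 h1
      omega
    have hpH : ¬ p ∣ Nat.card H := fun h => hpIH (Dvd.dvd.mul_left h _)
    have h2H : 2 ∣ Nat.card H := two_dvd_card hHna
    have hp2 : p ≠ 2 := by rintro rfl; exact hpH h2H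
    have hodd : Odd (p ^ f) := (hp.odd_of_ne_two hp2).pow
    have hq3 : 3 ≤ p ^ f := by obtain ⟨k, hk⟩ := hodd; omega
    have hedgeH : ∀ x y, NoEdge G x y → NoEdge H x y := fun x y h => noEdge_subgroup H (noEdge_quotient K h)
    refine Full.full_false hHna hp hpH hm6 hmH ?_ (fun t ht htm => hedgeH _ _ (hT.edge t 3 ht Nat.prime_three htm h3m))
      (fun x hx hc => t12_dvd_spor hq3 hx (hc ▸ hmH)) ?_
    · refine lt_of_le_of_lt ?_ (t12_gt hq2)
      have h1 : p ≤ p ^ f := Nat.le_self_pow (by omega) p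
      calc (p - 1) * (p - 3) ≤ p ^ f * p ^ f := Nat.mul_le_mul (by omega) (by omega)
        _ = _ := by ring
    · intro X t g hX htp
      -- `|K| = p ^ a`
      have hother : ∀ ℓ, ℓ.Prime → ℓ ≠ p → ¬ ℓ ∣ Nat.card K := by
        intro ℓ hℓ hℓp hℓK
        apply (hℓ.factorization_pos_of_dvd hK0 hℓK).ne'
        exact NumD4.elim hY hp2 hℓ hℓp ((Nat.ordProj_dvd _ _).trans hKG) (hparts ℓ hℓ)
      obtain ⟨κ, hκ⟩ : p ^ a ∣ Nat.card K := Nat.ordProj_dvd _ _
      have hκ0 : κ ≠ 0 := by rintro rfl; rw [mul_zero] at hκ; exact hK0 hκ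
      have hpκ : ¬ p ∣ κ := by
        intro h
        have h1 : p ^ (a + 1) ∣ Nat.card K := by
          rw [hκ, pow_succ]; exact Nat.mul_dvd_mul_left _ h
        have h2 := (hp.pow_dvd_iff_le_factorization hK0).1 h1
        omega
      have hκ1 : κ = 1 := by
        by_contra hne
        obtain ⟨d, hd, hdκ⟩ := Nat.exists_prime_and_dvd hne
        refine hother d hd ?_ (hκ ▸ Dvd.dvd.mul_left hdκ _)
        rintro rfl
        exact hpκ hdκ
      rw [hκ1, mul_one] at hκ
      have hprod : H.index * Nat.card H = num .TD4 (p ^ f) := by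
        have h1 : Nat.card G = (p ^ f) ^ 12 * num .TD4 (p ^ f) := by
          have h1 : 1 * Nat.card G = (p ^ f) ^ 12 * num .TD4 (p ^ f) := hY.eq
          rw [one_mul] at h1
          exact h1
        have h2 : p ^ a = (p ^ f) ^ 12 := by rw [ha, pow_mul]
        have h3 : (p ^ f) ^ 12 * (H.index * Nat.card H) = (p ^ f) ^ 12 * num .TD4 (p ^ f) := by
          rw [← h1, ← hHG, hκ, ← h2]
        exact Nat.eq_of_mul_eq_mul_left (pow_pos (by omega) _) h3
      exact NumD4.cross hY hp2 hX htp hprod hIle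

end Cfsg.Agent.H962.ExD4
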