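import Cfsg.Agent.H962.NumF4

/-!
# Numbers for `F₄(q)`: the full case (helper962)
-/

set_option autoImplicit false

namespace Cfsg.Agent.H962.NumF4

open Cfsg Cfsg.Agent.OrdDiv Cfsg.Agent.H902 Cfsg.Agent.H902.Art Cfsg.Agent.H962.CycNum Cfsg.Agent.H992.TC

universe u

variable {p f M : ℕ}

theorem P_two_pow (v : ℕ) : P 2 (2 ^ v) = 2 ^ v := by
  have := P_pow_self (r := 2) (k := v) (a := 1) Nat.prime_two (by norm_num)
  rwa [mul_one] at this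

theorem P_le_of_dvd (h : Art.Real .F4 p f M) {t v : ℕ} (ht : t.Prime) (htp : t ≠ p) (hv : t ^ v ∣ M) :
    t ^ v ≤ P t (num .F4 (p ^ f)) := by
  refine le_trans ?_ (h.P_other_le ht htp)
  exact Nat.pow_le_pow_right ht.pos ((ht.pow_dvd_iff_le_factorization h.M_ne).1 hv)

/-- a uniform bound for the odd parts -/
theorem P_odd_le {q t : ℕ} (hq : 5 ≤ q) (ht : t.Prime) (ht2 : t ≠ 2) (htq : ¬ t ∣ q) :
    P t (num .F4 q) ≤ (q ^ 3 + 1) ^ 2 := by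
  have h3 : 3 * (q + 1) ^ 2 ≤ q ^ 3 + 1 := by
    obtain ⟨r, rfl⟩ := Nat.exists_eq_add_of_le' hq
    nlinarith [Nat.zero_le (r ^ 3), Nat.zero_le (r ^ 2)]
  have h2 : 2 * (q ^ 2 + 1) ≤ q ^ 3 + 1 := by
    obtain ⟨r, rfl⟩ := Nat.exists_eq_add_of_le' hq
    nlinarith [Nat.zero_le (r ^ 3), Nat.zero_le (r ^ 2)]
  rcases P_numF_le ht ht2 (by omega) htq with h | h | h
  · refine h.trans ?_
    calc 9 * (q + 1) ^ 4 = (3 * (q + 1) ^ 2) ^ 2 := by ring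
      _ ≤ _ := Nat.pow_le_pow_left h3 2
  · refine h.trans ?_
    calc 3 * (q ^ 2 + 1) ^ 2 ≤ (2 * (q ^ 2 + 1)) ^ 2 := by nlinarith
      _ ≤ _ := Nat.pow_le_pow_left h2 2
  · exact h

/-- **Elimination of the odd primes.** -/
theorem elim (h : Art.Real .F4 p f M) (hp2 : p ≠ 2) {t v : ℕ} (ht : t.Prime) (ht2 : t ≠ 2) (htp : t ≠ p)
    (hv : t ^ v ∣ M) (hm : t12 (p ^ f) * (((p ^ f) ^ 4 + 1) / 2) ∣ t ^ v - 1) : v = 0 := by
  have hle := P_le_of_dvd h ht htp hv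
  have htq := h.not_dvd_q ht htp
  have hodd : Odd (p ^ f) := (h.hp.odd_of_ne_two hp2).pow
  have hq := h.q_ge
  generalize p ^ f = q at hq hle htq hodd hm
  have hq3 : 3 ≤ q := by obtain ⟨k, hk⟩ := hodd; omega
  refine pow_eq_one_of_small hm (hle.trans ?_) ht
  have h42 := sq_le (q := q) (by omega)
  by_cases hq5 : 5 ≤ q
  · refine (P_odd_le hq5 ht ht2 htq).trans ?_
    have e1 : q ^ 4 = q * q ^ 3 := by ring
    have e2 : 5 * q ^ 3 ≤ q ^ 4 := by rw [e1]; exact Nat.mul_le_mul_right _ hq5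
    have e3 : 125 ≤ q ^ 3 := by
      calc 125 = 5 ^ 3 := by norm_num
        _ ≤ q ^ 3 := Nat.pow_le_pow_left hq5 3
    have e5 : q ^ 3 = q * q ^ 2 := by ring
    have e6 : 5 * q ^ 2 ≤ q ^ 3 := by rw [e5]; exact Nat.mul_le_mul_right _ hq5
    have h1 : q ^ 3 + 1 ≤ t12 q := by rw [t12]; omega
    have h2 : q ^ 3 + 1 ≤ (q ^ 4 + 1) / 2 := by omega
    calc (q ^ 3 + 1) ^ 2 = (q ^ 3 + 1) * (q ^ 3 + 1) := by ring
      _ ≤ _ := Nat.mul_le_mul h1 h2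
  · have : q = 3 := by
      obtain ⟨k, hk⟩ := hodd
      omega
    subst this
    rcases P_numF_le ht ht2 (by omega) htq with h | h | h
    · exact h.trans (by decide)
    · exact h.trans (by decide)
    · exact h.trans (by decide)

/-- **Cross characteristic.** -/
theorem cross (h : Art.Real .F4 p f M) (hp2 : p ≠ 2) (hq5 : 5 ≤ p ^ f) {X : Sh} {t g S : ℕ} (hX : Art.Real X t g S)
    (htp : t ≠ p) {κ c v : ℕ} (hκ : κ * (c * S) = num .F4 (p ^ f)) (hc : c ≤ 6) (hκ2 : κ = 2 ^ v) : False := by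
  have hodd : Odd (p ^ f) := (h.hp.odd_of_ne_two hp2).pow
  have htq := h.not_dvd_q hX.hp htp
  have hn0 := h.num_ne
  have ht := hX.hp
  have hlt := hX.lt_cube
  generalize p ^ f = q at hq5 hκ htq hodd hn0
  have hge := num_F4_ge (q := q) (by omega)
  have hS0 : S ≠ 0 := by rintro rfl; apply hn0; rw [← hκ]; ring
  have hc0 : c ≠ 0 := by rintro rfl; apply hn0; rw [← hκ]; ring
  have hκ0 : κ ≠ 0 := by rintro rfl; apply hn0; rw [← hκ]; ring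
  have h56 : 5 * (q + 1) ≤ 6 * q := by omega
  have h4 : 625 * (q + 1) ^ 4 ≤ 1296 * q ^ 4 := by
    have := Nat.pow_le_pow_left h56 4
    rw [mul_pow, mul_pow] at this
    norm_num at this
    exact this
  have hκle : κ * P 2 S ≤ 128 * (q + 1) ^ 4 := by
    refine le_trans ?_ (P_numF_two (by omega) hodd)
    rw [← hκ, P_mul hκ0 (mul_ne_zero hc0 hS0), P_mul hc0 hS0, hκ2, P_two_pow v]
    exact Nat.mul_le_mul_left _ (Nat.le_mul_of_pos_left _ (P_pos Nat.prime_two))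
  by_cases ht2 : t = 2
  · subst ht2
    have h1 : num .F4 q ≤ 6 * (128 * (q + 1) ^ 4) ^ 3 := by
      rw [← hκ]
      have hκ1 : 1 ≤ κ := Nat.pos_of_ne_zero hκ0
      calc κ * (c * S) ≤ κ * (6 * (P 2 S) ^ 3) := Nat.mul_le_mul_left _ (Nat.mul_le_mul hc hlt.le)
        _ = 6 * (κ * (P 2 S) ^ 3) := by ring
        _ ≤ 6 * (κ ^ 3 * (P 2 S) ^ 3) := by
          refine Nat.mul_le_mul_left _ (Nat.mul_le_mul_right _ ?_)
          exact Nat.le_self_pow (by norm_num) κ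
        _ = 6 * (κ * P 2 S) ^ 3 := by ring
        _ ≤ _ := Nat.mul_le_mul_left _ (Nat.pow_le_pow_left hκle 3)
    have h2 : 625 ^ 3 * q ^ 28 ≤ 12 * 128 ^ 3 * (1296 * q ^ 4) ^ 3 := by
      calc 625 ^ 3 * q ^ 28 ≤ 625 ^ 3 * (2 * (6 * (128 * (q + 1) ^ 4) ^ 3)) :=
            Nat.mul_le_mul_left _ (hge.trans (Nat.mul_le_mul_left 2 h1))
        _ = 12 * 128 ^ 3 * (625 * (q + 1) ^ 4) ^ 3 := by ring
        _ ≤ _ := Nat.mul_le_mul_left _ (Nat.pow_le_pow_left h4 3)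
    have h3 : 625 ^ 3 * q ^ 28 = (625 ^ 3 * q ^ 16) * q ^ 12 := by ring
    have h5 : 12 * 128 ^ 3 * (1296 * q ^ 4) ^ 3 = (12 * 128 ^ 3 * 1296 ^ 3) * q ^ 12 := by ring
    rw [h3, h5] at h2
    have h6 : 625 ^ 3 * q ^ 16 ≤ 12 * 128 ^ 3 * 1296 ^ 3 := Nat.le_of_mul_le_mul_right h2 (pow_pos (by omega) _)
    have h7 : 625 ^ 3 * 5 ^ 16 ≤ 625 ^ 3 * q ^ 16 := Nat.mul_le_mul_left _ (Nat.pow_le_pow_left hq5 16)
    have h8 := h7.trans h6
    norm_num at h8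
  · have hP : P t S ≤ (q ^ 3 + 1) ^ 2 := by
      refine le_trans (P_mono ht hn0 ⟨κ * c, by rw [← hκ]; ring⟩) (P_odd_le hq5 ht ht2 htq)
    have h1 : num .F4 q ≤ (128 * (q + 1) ^ 4) * (6 * ((q ^ 3 + 1) ^ 2) ^ 3) := by
      rw [← hκ]
      refine Nat.mul_le_mul ?_ (Nat.mul_le_mul hc (hlt.le.trans (Nat.pow_le_pow_left hP 3)))
      exact (Nat.le_mul_of_pos_right _ (P_pos Nat.prime_two)).trans hκle
    have h126 : 125 * (q ^ 3 + 1) ≤ 126 * q ^ 3 := by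
      have : 5 ^ 3 ≤ q ^ 3 := Nat.pow_le_pow_left hq5 3
      norm_num at this
      omega
    have h2 : 625 * 125 ^ 6 * q ^ 28 ≤ 1536 * (1296 * q ^ 4) * (126 * q ^ 3) ^ 6 := by
      calc 625 * 125 ^ 6 * q ^ 28 ≤ 625 * 125 ^ 6 * (2 * ((128 * (q + 1) ^ 4) * (6 * ((q ^ 3 + 1) ^ 2) ^ 3))) :=
            Nat.mul_le_mul_left _ (hge.trans (Nat.mul_le_mul_left 2 h1))
        _ = 1536 * (625 * (q + 1) ^ 4) * (125 * (q ^ 3 + 1)) ^ 6 := by ring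
        _ ≤ _ := Nat.mul_le_mul (Nat.mul_le_mul_left _ h4) (Nat.pow_le_pow_left h126 6)
    have h3 : 625 * 125 ^ 6 * q ^ 28 = (625 * 125 ^ 6 * q ^ 6) * q ^ 22 := by ring
    have h5 : 1536 * (1296 * q ^ 4) * (126 * q ^ 3) ^ 6 = (1536 * 1296 * 126 ^ 6) * q ^ 22 := by ring
    rw [h3, h5] at h2
    have h6 := Nat.le_of_mul_le_mul_right h2 (pow_pos (by omega : 0 < q) _)
    have h7 : 625 * 125 ^ 6 * 5 ^ 6 ≤ 625 * 125 ^ 6 * q ^ 6 := Nat.mul_le_mul_left _ (Nat.pow_le_pow_left hq5 6)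
    have h8 := h7.trans h6
    norm_num at h8

/-- `q = 3` -/
theorem q_three (T : OrderTable.{u}) {S : Type u} [Group S] (hk : IsKnownSimple' S)
    (hna : ¬ ∀ a b : S, a * b = b * a) (hd : Nat.card S ∣ 3 ^ 24 * num .F4 3) (h3 : ¬ 3 ∣ Nat.card S)
    (h73 : 73 * 41 ∣ Nat.card S) : False := by
  obtain ⟨g, hg, hr, hcard⟩ := exists_good T hk hna small_F4_3.1 hd
  have hchk : ((cands [(2, 15), (3, 24), (5, 2), (7, 2), (13, 2), (41, 1), (73, 1)] (3 ^ 24 * num .F4 3)).all fun g =>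
      Nat.beq (ordN g % 3) 0 || !(Nat.beq (ordN g % (73 * 41)) 0)) = true := by
    decide +kernel
  have h1 := List.all_eq_true.1 hchk g hg
  rw [Bool.or_eq_true] at h1
  rw [← hcard] at h1
  rcases h1 with h1 | h1
  · exact h3 (Nat.dvd_of_mod_eq_zero (Nat.eq_of_beq_eq_true h1))
  · rw [Nat.mod_eq_zero_of_dvd h73] at h1
    exact absurd h1 (by decide)

end Cfsg.Agent.H962.NumF4
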