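import Cfsg.Agent.H962.Full
import Cfsg.Agent.H962.NumF4b
import Cfsg.Agent.H378.RegFin

/-!
# A finite group with the order and the element orders of `F₄(q)` (helper962)
-/

set_option autoImplicit false

namespace Cfsg.Agent.H962.ExF4

open Subgroup Cfsg Cfsg.Agent.OrdDiv Cfsg.Lie
open Cfsg.Agent.H902 Cfsg.Agent.H902.Art Cfsg.Agent.H364 Cfsg.Agent.H364.Slack
open Cfsg.Agent.H962 Cfsg.Agent.H962.IdSame Cfsg.Agent.H962.CycNum Cfsg.Agent.H962.NumF4 Cfsg.Agent.H962.ExIsol
open Cfsg.Agent.H378.ExcAdj Cfsg.Agent.H378.RegFin Cfsg.Agent.BpExc.RowsUntw Cfsg.Agent.BpExc.FamExt Cfsg.Agent.BpExc.FamUntw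
  Cfsg.Agent.BpExc.FamInst Cfsg.Agent.BpExc.LangFr Cfsg.Agent.BpExc.FamField

universe u

theorem f4_real (F : Type) [Field F] [Fintype F] {p f : ℕ} (hp : p.Prime) (hf : 1 ≤ f) (hF : Fintype.card F = p ^ f) :
    Art.Real .F4 p f (Nat.card ↥(chevF4.group F)) := by
  refine ⟨hp, hf, trivial, ?_⟩
  have h := table.{0}.f4 F _ hF
  change 1 * _ = (p ^ f) ^ 24 * (((p ^ f) ^ 2 - 1) * ((p ^ f) ^ 6 - 1) * ((p ^ f) ^ 8 - 1) * ((p ^ f) ^ 12 - 1))
  rw [h]
  ring

theorem eval8 (q : ℕ) : ((Polynomial.cyclotomic 8 ℤ).eval ((q : ℕ) : ℤ)).natAbs = q ^ 4 + 1 := by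
  have h1 : Polynomial.cyclotomic 8 ℤ = Polynomial.X ^ 4 + 1 := by
    have := Polynomial.cyclotomic_prime_pow_eq_geom_sum (R := ℤ) (p := 2) (n := 2) Nat.prime_two
    rw [show 2 ^ (2 + 1) = 8 by norm_num] at this
    rw [this, Finset.sum_range_succ, Finset.sum_range_one]
    norm_num
    ring
  rw [h1]
  simp only [Polynomial.eval_add, Polynomial.eval_pow, Polynomial.eval_X, Polynomial.eval_one]
  have h2 : ((q : ℤ) ^ 4 + 1) = ((q ^ 4 + 1 : ℕ) : ℤ) := by push_cast; ring
  rw [h2, Int.natAbs_natCast]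

/-- primes of order 8 and primes which do not divide `q ^ 4 + 1` -/
theorem noEdge8 {F : Type} [Field F] [Fintype F] {q : ℕ} (hF : Fintype.card F = q) {r s : ℕ} (hr : r.Prime)
    (hs : s.Prime) (h : orderOf (q : ZMod r) = 8) (hsq : ¬ s ∣ q ^ 4 + 1) : NoEdge ↥(chevF4.group F) r s := by
  refine noEdge_of_cent hr hs (k := q ^ 4 + 1) (fun x hx => ?_) hsq
  have hod : od (Nat.card F) r = 8 := by
    show orderOf ((Nat.card F : ℕ) : ZMod r) = 8
    rw [Nat.card_eq_fintype_card, hF, h]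
  have := (cent_od f4T inv_F4 one_ne_zero hr hx hod (by decide) (by norm_num)).2
  have hF' : Nat.card F = q := by rw [Nat.card_eq_fintype_card, hF]
  rwa [hF', eval8] at this

theorem card_le {p f M : ℕ} (hY : Art.Real .F4 p f M) : M ≤ p ^ (f * 52) := by
  have h2 : Art.num .F4 (p ^ f) ≤ (p ^ f) ^ 28 := by
    change ((p ^ f) ^ 2 - 1) * ((p ^ f) ^ 6 - 1) * ((p ^ f) ^ 8 - 1) * ((p ^ f) ^ 12 - 1) ≤ _
    calc _ ≤ (p ^ f) ^ 2 * (p ^ f) ^ 6 * (p ^ f) ^ 8 * (p ^ f) ^ 12 := by
          gcongr <;> exact Nat.sub_le _ _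
      _ = _ := by ring
  calc M ≤ (p ^ f) ^ 24 * Art.num .F4 (p ^ f) := hY.M_le
    _ ≤ (p ^ f) ^ 24 * (p ^ f) ^ 28 := Nat.mul_le_mul_left _ h2
    _ = _ := by rw [← pow_add, ← pow_mul]

/-- orders with respect to `q` -/
theorem order_q {p f n r : ℕ} (hf : 1 ≤ f) (h : orderOf (p : ZMod r) = f * n) :
    orderOf ((p ^ f : ℕ) : ZMod r) = n := by
  rw [H365.Near.order_pow hf, h, Nat.gcd_mul_right_left, Nat.mul_div_cancel_left _ (by omega)]

/-- `|K|_p = p ^ a`, a nonadjacent prime not dividing `|K|` -/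
theorem order_dvd_a {G : Type u} [Group G] [Finite G] (K : Subgroup G) [K.Normal] {p r n : ℕ} (hp : p.Prime)
    (hr : r.Prime) (hrp : r ≠ p) (ho : orderOf (p : ZMod r) = n) (hrG : r ∣ Nat.card G) (hrK : ¬ r ∣ Nat.card K)
    (hE : NoEdge G r p) : n ∣ (Nat.card K).factorization p := by
  have h1 := congr_one K hr hp hrp hrK hE
  have h2 : r ∣ r ^ (Nat.card G).factorization r :=
    dvd_pow_self r (hr.factorization_pos_of_dvd Nat.card_pos.ne' hrG).ne'
  have h3 := (Cfsg.Agent.Lib.Zsigmondy.dvd_pow_sub_one_iff hp.one_le ((Nat.card K).factorization p)).1 (h2.trans h1)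
  rwa [ho] at h3

/-- **The simple factor has the order of `G`.** -/
theorem core {G : Type u} [Group G] [Finite G] {F : Type} [Field F] [Fintype F] {p f : ℕ}
    (hF : Fintype.card F = p ^ f) (hY : Art.Real .F4 p f (Nat.card G))
    (hcard : Nat.card G = Nat.card ↥(chevF4.group F))
    (hs1 : ∀ x : G, ∃ y : ↥(chevF4.group F), orderOf y = orderOf x)
    (hs2 : ∀ y : ↥(chevF4.group F), ∃ x : G, orderOf x = orderOf y) :
    ∃ (K : Subgroup G) (_ : K.Normal) (H : Subgroup (G ⧸ K)), IsSimpleGroup H ∧ Nat.card H = Nat.card G := by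
  have hp := hY.hp
  have hf := hY.hf
  have hq2 := hY.q_ge
  have hG0 : Nat.card G ≠ 0 := Nat.card_pos.ne'
  -- the isolated torus
  obtain ⟨T0, hT0⟩ := isol_of_exact (H129.CycT.exact_F4_12 (F := F) hF (t12_cast (q := p ^ f) (by omega)))
  obtain ⟨T, hT⟩ := isol_transfer hs1 hs2 hcard hT0
  have hm1 : 1 < t12 (p ^ f) := by
    have := t12_gt hq2
    have : 1 ≤ (p ^ f) ^ 2 := Nat.one_le_pow _ _ (by omega)
    omega
  have hm6 := t12_coprime_six (q := p ^ f) (by omega)
  have h2m : ¬ 2 ∣ t12 (p ^ f) := fun h => (t12_ne (by omega) h).1 rfl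
  have h3m : ¬ 3 ∣ t12 (p ^ f) := fun h => (t12_ne (by omega) h).2 rfl
  have hpm := p_not_dvd hY
  obtain ⟨K, hK, hKm, hparts, hcase⟩ := ExCore.spec_struct hT hm1 h2m (n0 := 12) (by norm_num) fun r hr hrm => t12_mod hY hr hrm
  have hKG : Nat.card K ∣ Nat.card G := Subgroup.card_subgroup_dvd_card K
  have hK0 : Nat.card K ≠ 0 := Nat.card_pos.ne'
  -- the primes of order 12 f and 8 f
  obtain ⟨r, hr, hrp, hro⟩ := SameOut.exists_ppd hp (n := f * 12) (by omega) (fun h => by omega)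
  obtain ⟨s, hs, hsp, hso⟩ := SameOut.exists_ppd hp (n := f * 8) (by omega) (fun h => by omega)
  have hrq := order_q hf hro
  have hsq := order_q hf hso
  have hrm : r ∣ t12 (p ^ f) := by
    have : Fact r.Prime := ⟨hr⟩
    exact dvd_t12 (by omega) (z12 (pow_eq_of_order hrq) (pow_ne_of_order hrq (by norm_num))
      (pow_ne_of_order hrq (by norm_num)))
  have hs8 : s ∣ (p ^ f) ^ 4 + 1 := dvd_of_eight hsq hs
  have hs2' : s ≠ 2 := by
    have := order_lt hs hsq (by norm_num)
    omega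
  have hrG : r ∣ Nat.card G := hY.dvd_of_order_DM hr hro (by show 3 ≤ f * 12; omega)
  have hsG : s ∣ Nat.card G := by
    rw [M_eq hY]
    refine Dvd.dvd.mul_left (Dvd.dvd.mul_right (Dvd.dvd.mul_left ?_ _) _) _
    have e : (p ^ f) ^ 8 - 1 = ((p ^ f) ^ 4 - 1) * ((p ^ f) ^ 4 + 1) := by
      have h1 : 1 ≤ (p ^ f) ^ 4 := Nat.one_le_pow _ _ (by omega)
      have h2 : (p ^ f) ^ 8 = (p ^ f) ^ 4 * (p ^ f) ^ 4 := by ring
      obtain ⟨c, hc⟩ := Nat.exists_eq_add_of_le h1
      rw [h2, hc]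
      have : (1 + c) * (1 + c) = c * (1 + c + 1) + 1 := by ring
      rw [this, Nat.add_sub_cancel, Nat.add_sub_cancel_left]
    rw [e]
    exact Dvd.dvd.mul_left hs8 _
  have hpq8 : ¬ p ∣ (p ^ f) ^ 4 + 1 := by
    intro h
    have h1 : p ∣ (p ^ f) ^ 4 := dvd_pow (dvd_pow_self p (by omega)) (by norm_num)
    exact hp.one_lt.ne' (Nat.dvd_one.1 ((Nat.dvd_add_right h1).1 h))
  -- primes of `q ^ 4 + 1` do not divide `|K|`
  have h8K : ∀ t, t.Prime → t ≠ 2 → t ∣ (p ^ f) ^ 4 + 1 → (Nat.card K).factorization t = 0 := fun t ht ht2 htd =>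
    eight_zero hY ht ht2 htd ((Nat.ordProj_dvd _ _).trans hKG) (hparts t ht)
  have hsK : ¬ s ∣ Nat.card K := fun h =>
    (hs.factorization_pos_of_dvd hK0 h).ne' (h8K s hs hs2' hs8)
  have hrK : ¬ r ∣ Nat.card K := fun h => by
    have := Nat.dvd_gcd h hrm
    rw [hKm] at this
    exact hr.one_lt.ne' (Nat.dvd_one.1 this)
  have hEr : NoEdge G r p := hT.edge r p hr hp hrm hpm
  have hEs : NoEdge G s p := noEdge_transfer hs1 (noEdge8 hF hs hp hsq hpq8)
  set a := (Nat.card K).factorization p with hadef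
  have ha12 : f * 12 ∣ a := order_dvd_a K hp hr hrp hro hrG hrK hEr
  have ha8 : f * 8 ∣ a := order_dvd_a K hp hs hsp hso hsG hsK hEs
  have ha24 : f * 24 ∣ a := by
    have := Nat.lcm_dvd ha12 ha8
    rwa [Nat.lcm_mul_left, show Nat.lcm 12 8 = 24 by decide] at this
  have hpG : (Nat.card G).factorization p = f * 24 := by
    have h1 := hY.P_self
    rw [← pow_mul] at h1
    exact Nat.pow_right_injective hp.two_le h1
  have hale : a ≤ f * 24 := by
    rw [← hpG, hadef]
    exact (Nat.factorization_le_iff_dvd hK0 hG0).2 hKG p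
  -- the simple case
  rcases hcase with hFrob | ⟨H, hHn, hHs, hHna, hHG, hout, hmH, hidx, hidxlt⟩
  · exfalso
    rw [hFrob] at hsG
    rcases hs.dvd_mul.1 hsG with h | h
    · exact hsK h
    · rcases hs.dvd_mul.1 h with h | h
      · have h1 := t12_order (by omega) hs h
        omega
      · have h1 := Nat.le_of_dvd (by norm_num) h
        have h2 := order_dvd hs hsq (by norm_num)
        have h3 := hs.two_le
        have h4 := Nat.le_of_dvd (by omega) h2
        obtain ⟨k, hk⟩ := h2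
        have : s = 9 := by omega
        rw [this] at hs
        exact absurd hs (by norm_num)
  refine ⟨K, hK, H, hHs, ?_⟩
  have hH0 : Nat.card H ≠ 0 := Nat.card_pos.ne'
  have hI0 : H.index ≠ 0 := Subgroup.index_ne_zero_of_finite
  have ha : a = 0 ∨ a = f * 24 := by
    obtain ⟨k, hk⟩ := ha24
    rcases Nat.eq_zero_or_pos k with rfl | hk0
    · left; rw [hk, mul_zero]
    · right
      have : f * 24 * 1 ≤ f * 24 * k := Nat.mul_le_mul_left _ hk0
      omega
  rcases ha with ha | ha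
  · -- `p ∤ |K|`
    have hpK : ¬ p ∣ Nat.card K := fun h => (hp.factorization_pos_of_dvd hK0 h).ne' ha
    refine ExCore.zero_case hY .F4 (A := 52) (card_le hY) K H hHna hHG hout hpK ?_ ?_ (fun h => by cases h)
    · have h1 : H.index.factorization p ≤ 3 := by
        by_contra hcon
        have h2 : p ^ 4 ∣ H.index := (hp.pow_dvd_iff_le_factorization hI0).2 (by omega)
        have h3 := Nat.le_of_dvd (Nat.pos_of_ne_zero hI0) h2
        have h4 : 2 ^ 4 ≤ p ^ 4 := Nat.pow_le_pow_left hp.two_le 4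
        omega
      have h4 : cc p ≤ 12 := by unfold cc; split_ifs <;> norm_num
      show cc p + f * 52 ≤ 3 * (f * 24 - _) + _
      omega
    · intro t ht hto htK
      have htq := order_q hf hto
      have : Fact t.Prime := ⟨ht⟩
      have htm : t ∣ t12 (p ^ f) := dvd_t12 (by omega) (z12 (pow_eq_of_order htq)
        (pow_ne_of_order htq (show ¬ 12 ∣ 6 by norm_num)) (pow_ne_of_order htq (show ¬ 12 ∣ 4 by norm_num)))
      have := Nat.dvd_gcd htK htm
      rw [hKm] at this
      exact ht.one_lt.ne' (Nat.dvd_one.1 this)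
  · -- the full case
    exfalso
    have hpIH : ¬ p ∣ H.index * Nat.card H := by
      intro h
      have h1 : p ^ (a + 1) ∣ Nat.card G := by
        rw [← hHG, pow_succ]
        exact Nat.mul_dvd_mul (Nat.ordProj_dvd _ _) h
      have h2 := (hp.pow_dvd_iff_le_factorization hG0).1 h1
      omega
    have hpH : ¬ p ∣ Nat.card H := fun h => hpIH (Dvd.dvd.mul_left h _)
    have h2H : 2 ∣ Nat.card H := two_dvd_card hHna
    have hp2 : p ≠ 2 := by rintro rfl; exact hpH h2H
    have hIle : H.index ≤ 6 := by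
      obtain ⟨k, hk⟩ := hidx
      have hk2 : 2 ≤ k := by
        by_contra hcon
        have : k = 0 ∨ k = 1 := by omega
        rcases this with rfl | rfl
        · omega
        · rw [mul_one] at hk; omega
      nlinarith
    have hHdG : Nat.card H ∣ Nat.card G := by
      rw [← hHG]; exact (Dvd.intro_left _ rfl).trans (Dvd.intro_left _ rfl)
    -- `q = 3`
    have hsH : s ∣ Nat.card H := by
      rw [← hHG] at hsG
      rcases hs.dvd_mul.1 hsG with h | h
      · exact absurd h hsK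
      · rcases hs.dvd_mul.1 h with h | h
        · exfalso
          have h1 := Nat.le_of_dvd (Nat.pos_of_ne_zero hI0) h
          have := order_lt hs hsq (by norm_num)
          omega
        · exact h
    by_cases hq3 : p ^ f = 3
    · have hp3 : p = 3 := by
        have h1 : p ∣ 3 := hq3 ▸ dvd_pow_self p (by omega)
        exact (Nat.prime_dvd_prime_iff_eq hp Nat.prime_three).1 h1
      refine q_three table (Cfsg.Agent.S0000.result (G := H)) hHna ?_ (hp3 ▸ hpH) ?_
      · have h1 := M_eq hY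
        rw [hq3] at h1
        rw [h1] at hHdG
        exact hHdG
      · refine Nat.Coprime.mul_dvd_of_dvd_of_dvd (by norm_num) ?_ ?_
        · rw [hq3] at hmH
          exact hmH
        · rw [hq3] at hs8
          have h1 : s ∣ 2 * 41 := hs8
          rcases hs.dvd_mul.1 h1 with h | h
          · exact absurd ((Nat.prime_dvd_prime_iff_eq hs Nat.prime_two).1 h) hs2'
          · have h5 := (Nat.prime_dvd_prime_iff_eq hs (by norm_num)).1 h
            rw [← h5]; exact hsH
    have hodd : Odd (p ^ f) := (hp.odd_of_ne_two hp2).pow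
    have hq5 : 5 ≤ p ^ f := by obtain ⟨k, hk⟩ := hodd; omega
    have hedgeH : ∀ x y, NoEdge G x y → NoEdge H x y := fun x y h => noEdge_subgroup H (noEdge_quotient K h)
    refine Full.full_false hHna hp hpH hm6 hmH ?_ (fun t ht htm => hedgeH _ _ (hT.edge t 3 ht Nat.prime_three htm h3m))
      (fun x hx hc => t12_dvd_spor (by omega) hx (hc ▸ hmH)) ?_
    · refine lt_of_le_of_lt ?_ (t12_gt hq2)
      have h1 : p ≤ p ^ f := Nat.le_self_pow (by omega) p
      calc (p - 1) * (p - 3) ≤ p ^ f * p ^ f := Nat.mul_le_mul (by omega) (by omega)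
        _ = _ := by ring
    · intro X t g hX htp
      -- the primes of `|K|`
      have hother : ∀ ℓ, ℓ.Prime → ℓ ≠ 2 → ℓ ≠ p → ¬ ℓ ∣ Nat.card K := by
        intro ℓ hℓ hℓ2 hℓp hℓK
        apply (hℓ.factorization_pos_of_dvd hK0 hℓK).ne'
        by_cases h8 : ℓ ∣ (p ^ f) ^ 4 + 1
        · exact h8K ℓ hℓ hℓ2 h8
        refine elim hY hp2 hℓ hℓ2 hℓp ((Nat.ordProj_dvd _ _).trans hKG) ?_
        have hR0 : ((p ^ f) ^ 4 + 1) / 2 ≠ 0 := by
          have : 1 ≤ (p ^ f) ^ 4 := Nat.one_le_pow _ _ (by omega)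
          omega
        have h2R : ((p ^ f) ^ 4 + 1) / 2 * 2 = (p ^ f) ^ 4 + 1 := by
          apply Nat.div_mul_cancel
          have h4 : Odd ((p ^ f) ^ 4) := hodd.pow
          obtain ⟨k, hk⟩ := h4
          exact ⟨k + 1, by omega⟩
        have hRd : ((p ^ f) ^ 4 + 1) / 2 ∣ (p ^ f) ^ 4 + 1 := ⟨2, h2R.symm⟩
        have hR2 : ∀ t, t ∣ ((p ^ f) ^ 4 + 1) / 2 → t ≠ 2 := by
          rintro _ h rfl
          obtain ⟨b, hb⟩ := hodd
          have h5 : (p ^ f) ^ 4 = 8 * (2 * b ^ 4 + 4 * b ^ 3 + 3 * b ^ 2 + b) + 1 := by rw [hb]; ring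
          omega
        have hRG : ((p ^ f) ^ 4 + 1) ∣ Nat.card G := by
          rw [M_eq hY]
          refine Dvd.dvd.mul_left (Dvd.dvd.mul_right (Dvd.dvd.mul_left ?_ _) _) _
          have e : (p ^ f) ^ 8 - 1 = ((p ^ f) ^ 4 - 1) * ((p ^ f) ^ 4 + 1) := by
            have h1 : 1 ≤ (p ^ f) ^ 4 := Nat.one_le_pow _ _ (by omega)
            have h2 : (p ^ f) ^ 8 = (p ^ f) ^ 4 * (p ^ f) ^ 4 := by ring
            obtain ⟨c, hc⟩ := Nat.exists_eq_add_of_le h1
            rw [h2, hc]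
            have : (1 + c) * (1 + c) = c * (1 + c + 1) + 1 := by ring
            rw [this, Nat.add_sub_cancel, Nat.add_sub_cancel_left]
          rw [e]
          exact Dvd.intro_left _ rfl
        refine Nat.Coprime.mul_dvd_of_dvd_of_dvd ?_ (hparts ℓ hℓ) ?_
        · refine Nat.coprime_of_dvd fun t ht h1 h2 => ?_
          have h3 := t12_order (by omega) ht h1
          have h4 := order_eight (by omega) ht (hR2 t h2) (h2.trans hRd)
          omega
        · refine dvd_of_prime_parts hR0 fun t ht htR => ?_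
          have ht8 := htR.trans hRd
          have ht2 := hR2 t htR
          have hto := order_eight (by omega) ht ht2 ht8
          have htK : ¬ t ∣ Nat.card K := fun h => (ht.factorization_pos_of_dvd hK0 h).ne' (h8K t ht ht2 ht8)
          have htℓ : t ≠ ℓ := by rintro rfl; exact h8 ht8
          have hE : NoEdge G t ℓ := noEdge_transfer hs1 (noEdge8 hF ht hℓ hto h8)
          have h1 := congr_one K ht hℓ htℓ htK hE
          refine (pow_dvd_pow t ?_).trans h1
          exact (Nat.factorization_le_iff_dvd hR0 hG0).2 (hRd.trans hRG) t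
      -- `|K| = p ^ a κ`
      obtain ⟨κ, hκ⟩ : p ^ a ∣ Nat.card K := Nat.ordProj_dvd _ _
      have hκ0 : κ ≠ 0 := by rintro rfl; rw [mul_zero] at hκ; exact hK0 hκ
      have hpκ : ¬ p ∣ κ := by
        intro h
        have h1 : p ^ (a + 1) ∣ Nat.card K := by
          rw [hκ, pow_succ]; exact Nat.mul_dvd_mul_left _ h
        have h2 := (hp.pow_dvd_iff_le_factorization hK0).1 h1
        omega
      have hκ2 : κ = 2 ^ κ.primeFactorsList.length := by
        refine Nat.eq_prime_pow_of_unique_prime_dvd hκ0 fun {d} hd hdκ => ?_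
        by_contra hne
        refine hother d hd hne ?_ (hκ ▸ Dvd.dvd.mul_left hdκ _)
        rintro rfl
        exact hpκ hdκ
      have hprod : κ * (H.index * Nat.card H) = num .F4 (p ^ f) := by
        have h1 : Nat.card G = (p ^ f) ^ 24 * num .F4 (p ^ f) := by
          have h1 : 1 * Nat.card G = (p ^ f) ^ 24 * num .F4 (p ^ f) := hY.eq
          rw [one_mul] at h1
          exact h1
        have h2 : p ^ a = (p ^ f) ^ 24 := by rw [ha, pow_mul]
        have h3 : (p ^ f) ^ 24 * (κ * (H.index * Nat.card H)) = (p ^ f) ^ 24 * num .F4 (p ^ f) := by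
          rw [← h1, ← hHG, hκ, ← h2]; ring
        exact Nat.eq_of_mul_eq_mul_left (pow_pos (by omega) _) h3
      exact NumF4.cross hY hp2 hq5 hX htp hprod hIle hκ2

end Cfsg.Agent.H962.ExF4
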