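import Cfsg.Agent.H962.NumG2

/-!
# Numbers for `G₂(q)`: elimination (helper962)
-/

set_option autoImplicit false

namespace Cfsg.Agent.H962.NumG2

open Cfsg Cfsg.Agent.OrdDiv Cfsg.Agent.H902 Cfsg.Agent.H902.Art Cfsg.Agent.H962.CycNum Cfsg.Agent.H992.TC
open Cfsg.Agent.H962.NumF4 (sub_cast)
open Cfsg.Agent.H962.NumD4 (order_three phi3_odd dvd_sub_iff exists_three)

universe u

variable {p f M q m m' r t : ℕ}

/-- the possible bounds for the `t`-part -/
inductive Bd (q t : ℕ) : ℕ → Prop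
  | phi3 : t ∣ q ^ 2 + q + 1 → t ≠ 3 → Bd q t (q ^ 2 + q + 1)
  | phi6 : t ∣ q ^ 2 - q + 1 → t ≠ 3 → Bd q t (q ^ 2 - q + 1)
  | minus : Bd q t ((q - 1) ^ 2)
  | plus : Bd q t ((q + 1) ^ 2)
  | two_minus : Bd q t (4 * (q - 1) ^ 2)
  | two_plus : Bd q t (4 * (q + 1) ^ 2)
  | three_minus : q % 3 = 1 → Bd q t (3 * (q - 1) ^ 2)
  | three_plus : q % 3 = 2 → Bd q t (3 * (q + 1) ^ 2)

theorem exists_bd (hq : 3 ≤ q) (hodd : Odd q) (ht : t.Prime) (htq : ¬ t ∣ q) {v : ℕ} (hv : t ^ v ∣ num .G2 q) :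
    ∃ B, Bd q t B ∧ t ^ v ∣ B := by
  rw [num_factor (by omega)] at hv
  have e1 : q ^ 2 - 1 = (q - 1) * (q + 1) := by
    zify
    push_cast [sub_cast (show 1 ≤ q by omega), Nat.cast_sub (show 1 ≤ q by omega)]
    ring
  by_cases ht2 : t = 2
  · subst ht2
    have h1 : ¬ 2 ∣ (q ^ 2 + q + 1) * (q ^ 2 - q + 1) := fun h => by
      rcases Nat.prime_two.dvd_mul.1 h with h | h
      · exact phi3_odd h
      · exact phi6_odd h
    have h2 := pow_dvd_of_coprime hv rfl Nat.prime_two h1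
    obtain ⟨k, hk⟩ := hodd
    by_cases h4 : 4 ∣ q - 1
    · have e : (q ^ 2 - 1) ^ 2 = (4 * (q - 1) ^ 2) * (k + 1) ^ 2 := by
        have : q + 1 = 2 * (k + 1) := by omega
        rw [e1, this]; ring
      refine ⟨_, Bd.two_minus, pow_dvd_of_coprime h2 e Nat.prime_two fun h => ?_⟩
      have := Nat.prime_two.dvd_of_dvd_pow h
      omega
    · have e : (q ^ 2 - 1) ^ 2 = (4 * (q + 1) ^ 2) * k ^ 2 := by
        have : q - 1 = 2 * k := by omega
        rw [e1, this]; ring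
      refine ⟨_, Bd.two_plus, pow_dvd_of_coprime h2 e Nat.prime_two fun h => ?_⟩
      have := Nat.prime_two.dvd_of_dvd_pow h
      omega
  by_cases ht3 : t = 3
  · subst ht3
    have h9 : ¬ 9 ∣ q ^ 4 + q ^ 2 + 1 := by
      intro h
      have h1 : (q ^ 4 + q ^ 2 + 1) % 9 = 0 := Nat.mod_eq_zero_of_dvd h
      have h2 : (q ^ 4 + q ^ 2 + 1) % 9 = ((q % 9) ^ 4 + (q % 9) ^ 2 + 1) % 9 := by
        rw [Nat.add_mod, Nat.add_mod (q ^ 4) (q ^ 2), Nat.pow_mod, Nat.pow_mod q 2]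
        simp [Nat.add_mod]
      rw [h2] at h1
      have h5 : q % 9 < 9 := Nat.mod_lt _ (by norm_num)
      have h6 : q % 9 % 3 ≠ 0 := by omega
      generalize q % 9 = x at h1 h5 h6
      interval_cases x <;> omega
    have e4 : (q ^ 2 + q + 1) * (q ^ 2 - q + 1) = q ^ 4 + q ^ 2 + 1 := by
      zify
      push_cast [Nat.cast_sub (le_sq q)]
      ring
    have h3 : 3 ∣ q ^ 4 + q ^ 2 + 1 := by
      rw [← e4]
      have h6 : q % 3 = 1 ∨ q % 3 = 2 := by omega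
      rcases h6 with h6 | h6
      · exact Dvd.dvd.mul_right (three_dvd_phi3.2 h6) _
      · exact Dvd.dvd.mul_left (three_dvd_phi6.2 h6) _
    obtain ⟨w, hw⟩ := h3
    have hw3 : ¬ 3 ∣ w := fun h => h9 (by rw [hw]; exact Nat.mul_dvd_mul_left 3 h)
    rw [e4, hw, e1] at hv
    have h6 : q % 3 = 1 ∨ q % 3 = 2 := by omega
    rcases h6 with h6 | h6
    · refine ⟨_, Bd.three_minus h6, pow_dvd_of_coprime hv
        (show _ = (3 * (q - 1) ^ 2) * ((q + 1) ^ 2 * w) by ring) Nat.prime_three fun h => ?_⟩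
      rcases Nat.prime_three.dvd_mul.1 h with h | h
      · have := Nat.prime_three.dvd_of_dvd_pow h
        omega
      · exact hw3 h
    · refine ⟨_, Bd.three_plus h6, pow_dvd_of_coprime hv
        (show _ = (3 * (q + 1) ^ 2) * ((q - 1) ^ 2 * w) by ring) Nat.prime_three fun h => ?_⟩
      rcases Nat.prime_three.dvd_mul.1 h with h | h
      · have := Nat.prime_three.dvd_of_dvd_pow h
        omega
      · exact hw3 h
  have hf : Fact t.Prime := ⟨ht⟩
  by_cases h3 : t ∣ q ^ 2 + q + 1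
  · have ho := order_three ht ht3 h3
    refine ⟨_, Bd.phi3 h3 ht3, pow_dvd_of_coprime hv
      (show _ = (q ^ 2 + q + 1) * ((q ^ 2 - 1) ^ 2 * (q ^ 2 - q + 1)) by ring) ht fun h => ?_⟩
    rcases ht.dvd_mul.1 h with h | h
    · exact pow_ne_of_order ho (show ¬ 3 ∣ 2 by norm_num) ((dvd_sub_iff (by omega) 2).1 (ht.dvd_of_dvd_pow h))
    · have := order_six ht ht3 h
      omega
  by_cases h6 : t ∣ q ^ 2 - q + 1
  · have ho := order_six ht ht3 h6
    refine ⟨_, Bd.phi6 h6 ht3, pow_dvd_of_coprime hv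
      (show _ = (q ^ 2 - q + 1) * ((q ^ 2 - 1) ^ 2 * (q ^ 2 + q + 1)) by ring) ht fun h => ?_⟩
    rcases ht.dvd_mul.1 h with h | h
    · exact pow_ne_of_order ho (show ¬ 6 ∣ 2 by norm_num) ((dvd_sub_iff (by omega) 2).1 (ht.dvd_of_dvd_pow h))
    · exact h3 h
  have h1 := pow_dvd_of_coprime hv rfl ht fun h => by
    rcases ht.dvd_mul.1 h with h | h
    · exact h3 h
    · exact h6 h
  rw [e1] at h1
  by_cases h7 : t ∣ q - 1
  · refine ⟨_, Bd.minus, pow_dvd_of_coprime h1 (show _ = (q - 1) ^ 2 * (q + 1) ^ 2 by ring) ht fun h => ?_⟩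
    have h8 := ht.dvd_of_dvd_pow h
    have h9 : t ∣ 2 := by
      have e : q + 1 = (q - 1) + 2 := by omega
      rw [e] at h8
      exact (Nat.dvd_add_right h7).1 h8
    exact ht2 ((Nat.prime_dvd_prime_iff_eq ht Nat.prime_two).1 h9)
  · exact ⟨_, Bd.plus, pow_dvd_of_coprime h1 (show _ = (q + 1) ^ 2 * (q - 1) ^ 2 by ring) ht fun h =>
      h7 (ht.dvd_of_dvd_pow h)⟩

theorem bd_le (hq : 3 ≤ q) {B : ℕ} (hB : Bd q t B) : B ≤ 4 * (q + 1) ^ 2 := by
  have h1 : (q - 1) ^ 2 ≤ (q + 1) ^ 2 := Nat.pow_le_pow_left (by omega) 2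
  have h2 : q ^ 2 + q + 1 ≤ (q + 1) ^ 2 := by nlinarith
  have h3 := le_sq q
  cases hB <;> omega

/-- a divisor of `B` congruent to one -/
theorem near {v B k ρ : ℕ} (hm : m ∣ t ^ v - 1) (hB : t ^ v ∣ B) (ht : t.Prime) (e : B = k * m + ρ)
    (hρ : ρ < m) (h1 : B < m * (m + 1)) (h2 : B < ρ * (m + 1)) : v = 0 := by
  by_contra hv
  have h3 : 1 < t ^ v := Nat.one_lt_pow hv ht.one_lt
  obtain ⟨i, hi⟩ := hm
  have hi0 : 1 ≤ i := by
    rcases Nat.eq_zero_or_pos i with rfl | h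
    · rw [mul_zero] at hi; omega
    · exact h
  have hx : t ^ v = m * i + 1 := by omega
  have hxm : m + 1 ≤ t ^ v := by rw [hx]; nlinarith
  obtain ⟨c, hc⟩ := hB
  have hcm : c < m := by
    by_contra hcon
    push Not at hcon
    have : (m + 1) * m ≤ t ^ v * c := Nat.mul_le_mul hxm hcon
    rw [← hc] at this
    nlinarith
  have hmod : c ≡ ρ [MOD m] := by
    have h4 : B ≡ ρ [MOD m] := by rw [e]; unfold Nat.ModEq; rw [mul_comm, Nat.mul_add_mod]
    have h5 : B ≡ c [MOD m] := by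
      rw [hc, hx, add_mul, one_mul, mul_assoc]; unfold Nat.ModEq; rw [Nat.mul_add_mod]
    exact h5.symm.trans h4
  have hcρ := Nat.ModEq.eq_of_lt_of_lt hmod hcm hρ
  subst hcρ
  have : (m + 1) * c ≤ t ^ v * c := Nat.mul_le_mul_right _ hxm
  rw [← hc] at this
  nlinarith

/-- **Elimination**, `p` odd, `q ≥ 17`. -/
theorem elim (h : Art.Real .G2 p f M) (hT : Tor (p ^ f) m m') (hp2 : p ≠ 2) (hq17 : 17 ≤ p ^ f) {t v : ℕ} (ht : t.Prime)
    (htp : t ≠ p) (hv : t ^ v ∣ M) (hm : m ∣ t ^ v - 1) : v = 0 := by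
  by_cases hs : t ≠ 3 ∧ t ∣ m'
  · exact sec_zero h hT ht hs.1 hs.2 hv hm
  by_cases htm : t ∣ m
  · by_contra hv0
    have h1 : t ∣ t ^ v := dvd_pow_self t hv0
    have h2 := htm.trans hm
    have h3 : 1 ≤ t ^ v := Nat.one_le_pow _ _ ht.pos
    have h4 : t ∣ 1 := by
      have := (Nat.dvd_sub h1 h2)
      rwa [Nat.sub_sub_self h3] at this
    exact ht.one_lt.ne' (Nat.dvd_one.1 h4)
  have htq := h.not_dvd_q ht htp
  have hodd : Odd (p ^ f) := (h.hp.odd_of_ne_two hp2).pow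
  have hvn : t ^ v ∣ num .G2 (p ^ f) := by
    refine pow_dvd_of_coprime hv (b := (p ^ f) ^ 6) (by rw [M_eq h, mul_comm]; rfl) ht fun h1 => ?_
    exact htq (ht.dvd_of_dvd_pow h1)
  generalize p ^ f = q at hq17 hT htq hodd hvn
  obtain ⟨B, hB, hvB⟩ := exists_bd (by omega) hodd ht htq hvn
  obtain ⟨x, rfl⟩ := Nat.exists_eq_add_of_le hq17
  have hqq := le_sq (17 + x)
  have hm1 : (17 + x) - 1 = 16 + x := by omega
  rcases hT with ⟨h5, h6, h7⟩ | ⟨h5, h6, h7⟩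
  · -- `m = q² + q + 1`
    have hm' : m = x ^ 2 + 35 * x + 307 := by rw [h6]; ring
    cases hB with
    | phi3 h1 h2 => exact absurd (h6 ▸ h1) htm
    | phi6 h1 h2 => exact absurd ⟨h2, h7 ▸ h1⟩ hs
    | minus =>
      rw [hm1] at hvB
      refine near (k := 0) (ρ := (16 + x) ^ 2) hm hvB ht (by ring) ?_ ?_ ?_ <;> rw [hm'] <;> nlinarith
    | plus =>
      refine near (k := 1) (ρ := 17 + x) hm hvB ht ?_ ?_ ?_ ?_ <;> rw [hm']
      · ring
      · nlinarith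
      · nlinarith
      · nlinarith
    | two_minus =>
      rw [hm1] at hvB
      refine near (k := 3) (ρ := x ^ 2 + 23 * x + 103) hm hvB ht ?_ ?_ ?_ ?_ <;> rw [hm']
      · ring
      · nlinarith
      · nlinarith
      · nlinarith
    | two_plus =>
      refine near (k := 4) (ρ := 4 * (17 + x)) hm hvB ht ?_ ?_ ?_ ?_ <;> rw [hm']
      · ring
      · nlinarith
      · nlinarith
      · nlinarith
    | three_minus h8 => exact absurd h8 h5
    | three_plus h8 =>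
      refine near (k := 3) (ρ := 3 * (17 + x)) hm hvB ht ?_ ?_ ?_ ?_ <;> rw [hm']
      · ring
      · nlinarith
      · nlinarith
      · nlinarith
  · -- `m = q² - q + 1`
    have hm' : m = x ^ 2 + 33 * x + 273 := by
      rw [h6]
      zify
      push_cast [Nat.cast_sub hqq]
      ring
    cases hB with
    | phi3 h1 h2 => exact absurd ⟨h2, h7 ▸ h1⟩ hs
    | phi6 h1 h2 => exact absurd (h6 ▸ h1) htm
    | minus =>
      rw [hm1] at hvB
      refine near (k := 0) (ρ := (16 + x) ^ 2) hm hvB ht (by ring) ?_ ?_ ?_ <;> rw [hm'] <;> nlinarith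
    | plus =>
      refine near (k := 1) (ρ := 3 * (17 + x)) hm hvB ht ?_ ?_ ?_ ?_ <;> rw [hm']
      · ring
      · nlinarith
      · nlinarith
      · nlinarith
    | two_minus =>
      rw [hm1] at hvB
      refine near (k := 3) (ρ := x ^ 2 + 29 * x + 205) hm hvB ht ?_ ?_ ?_ ?_ <;> rw [hm']
      · ring
      · nlinarith
      · nlinarith
      · nlinarith
    | two_plus =>
      refine near (k := 4) (ρ := 12 * (17 + x)) hm hvB ht ?_ ?_ ?_ ?_ <;> rw [hm']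
      · ring
      · nlinarith
      · nlinarith
      · nlinarith
    | three_minus h8 =>
      rw [hm1] at hvB
      refine near (k := 2) (ρ := x ^ 2 + 30 * x + 222) hm hvB ht ?_ ?_ ?_ ?_ <;> rw [hm']
      · ring
      · nlinarith
      · nlinarith
      · nlinarith
    | three_plus h8 => omega

/-- **Cross characteristic.** -/
theorem cross (h : Art.Real .G2 p f M) (hp2 : p ≠ 2) (hq17 : 17 ≤ p ^ f) {X : Sh} {t g S : ℕ} (hX : Art.Real X t g S)
    (htp : t ≠ p) {c : ℕ} (hκ : c * S = num .G2 (p ^ f)) (hc : c ≤ 3) : False := by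
  have hodd : Odd (p ^ f) := (h.hp.odd_of_ne_two hp2).pow
  have htq := h.not_dvd_q hX.hp htp
  have hn0 := h.num_ne
  have ht := hX.hp
  have hlt := hX.lt_cube
  generalize p ^ f = q at hκ htq hodd hn0 hq17
  obtain ⟨B, hB, hvB⟩ := exists_bd (by omega) hodd ht htq (v := S.factorization t)
    ((Nat.ordProj_dvd _ _).trans ⟨c, by rw [← hκ]; ring⟩)
  have hB1 := bd_le (by omega) hB
  have hB0 : 0 < B := by
    cases hB <;> first | positivity | (have := Nat.pos_of_ne_zero (show q - 1 ≠ 0 by omega); positivity)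
  have hP : P t S ≤ 4 * (q + 1) ^ 2 := (Nat.le_of_dvd hB0 hvB).trans hB1
  have h1 : num .G2 q ≤ 3 * (4 * (q + 1) ^ 2) ^ 3 := by
    calc num .G2 q = c * S := hκ.symm
      _ ≤ 3 * P t S ^ 3 := Nat.mul_le_mul hc hlt.le
      _ ≤ _ := Nat.mul_le_mul_left _ (Nat.pow_le_pow_left hP 3)
  rw [num_factor (by omega)] at h1
  obtain ⟨x, rfl⟩ := Nat.exists_eq_add_of_le hq17
  have e1 : (17 + x) ^ 2 - 1 = (16 + x) * (18 + x) := by
    have : (17 + x) ^ 2 = (16 + x) * (18 + x) + 1 := by ring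
    rw [this, Nat.add_sub_cancel]
  have e2 : (17 + x) ^ 2 - (17 + x) + 1 = x ^ 2 + 33 * x + 273 := by
    have : (17 + x) ^ 2 = x ^ 2 + 33 * x + 272 + (17 + x) := by ring
    rw [this, Nat.add_sub_cancel]
  have e3 : (17 + x) ^ 2 + (17 + x) + 1 = x ^ 2 + 35 * x + 307 := by ring
  rw [e1, e2, e3] at h1
  have h2 : (18 + x) ^ 2 * (192 * (18 + x) ^ 4) < (18 + x) ^ 2 * ((16 + x) ^ 2 * ((x ^ 2 + 35 * x + 307) * (x ^ 2 + 33 * x + 273))) := by
    refine Nat.mul_lt_mul_of_pos_left ?_ (by positivity)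
    have e4 : (16 + x) ^ 2 * ((x ^ 2 + 35 * x + 307) * (x ^ 2 + 33 * x + 273)) = x ^ 6 + 100 * x ^ 5 + 4167 * x ^ 4 +
        92614 * x ^ 3 + 1157923 * x ^ 2 + 7721568 * x + 21455616 := by ring
    have e5 : 192 * (18 + x) ^ 4 = 192 * x ^ 4 + 13824 * x ^ 3 + 373248 * x ^ 2 + 4478976 * x + 20155392 := by ring
    rw [e4, e5]
    have : 0 ≤ x ^ 6 := Nat.zero_le _
    have : 0 ≤ x ^ 5 := Nat.zero_le _
    omega
  have e6 : 3 * (4 * (17 + x + 1) ^ 2) ^ 3 = (18 + x) ^ 2 * (192 * (18 + x) ^ 4) := by ring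
  have e7 : ((16 + x) * (18 + x)) ^ 2 * ((x ^ 2 + 35 * x + 307) * (x ^ 2 + 33 * x + 273)) =
      (18 + x) ^ 2 * ((16 + x) ^ 2 * ((x ^ 2 + 35 * x + 307) * (x ^ 2 + 33 * x + 273))) := by ring
  rw [e6, e7] at h1
  omega

theorem num_mono {a b : ℕ} (h : a ≤ b) : num .G2 a ≤ num .G2 b := by
  show (a ^ 2 - 1) * (a ^ 6 - 1) ≤ (b ^ 2 - 1) * (b ^ 6 - 1)
  exact Nat.mul_le_mul (Nat.sub_le_sub_right (Nat.pow_le_pow_left h 2) 1) (Nat.sub_le_sub_right (Nat.pow_le_pow_left h 6) 1)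

def sroot : List ℕ :=
  [3, 4, 5, 6, 7, 8, 9, 10, 11, 12, 13, 14, 15, 17, 18, 24, 27, 28, 31, 32, 33, 50, 53, 55, 57, 58, 61, 63, 69,
   73, 122, 131, 133, 140, 143, 151, 212, 231, 243, 310, 338, 356, 1028, 1121, 1180, 15933, 17375, 18279,
   5475548, 5971127, 6281563]

theorem spor_root : ∀ x ∈ spor, ∀ c ∈ [1, 2, 3], ∃ k, num .G2 k < c * x.2 ∧ c * x.2 < num .G2 (k + 1) := by
  have h : (spor.all fun x => [1, 2, 3].all fun c => sroot.any fun k => Nat.blt (num .G2 k) (c * x.2) &&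
      Nat.blt (c * x.2) (num .G2 (k + 1))) = true := by decide +kernel
  intro x hx c hc
  have h1 := List.all_eq_true.1 (List.all_eq_true.1 h x hx) c hc
  obtain ⟨k, hk, h2⟩ := List.any_eq_true.1 h1
  rw [Bool.and_eq_true, Nat.blt_eq, Nat.blt_eq] at h2
  exact ⟨k, h2⟩

/-- **Sporadic groups.** -/
theorem no_spor {x : Grp × ℕ} (hx : x ∈ spor) {c : ℕ} (hc0 : 1 ≤ c) (hc : c ≤ 3) : c * x.2 ≠ num .G2 q := by
  intro h
  have hc' : c ∈ [1, 2, 3] := by
    have : c = 1 ∨ c = 2 ∨ c = 3 := by omega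
    simpa using this
  obtain ⟨k, h1, h2⟩ := spor_root x hx c hc'
  rcases Nat.lt_or_ge k q with h3 | h3
  · have := num_mono (show k + 1 ≤ q from h3)
    omega
  · have := num_mono h3
    omega

/-! ### small `q` -/

def chkG (l : List (ℕ × ℕ)) (q p e Q : ℕ) : Bool :=
  (cands l (q ^ 6 * num .G2 q)).all fun g => Nat.beq (ordN g) (q ^ 6 * num .G2 q) || !(Nat.beq (ordN g % Q) 0) ||
    ((Nat.beq (ordN g % p) 0) && !(Nat.beq (ordN g % p ^ e) 0))

theorem chkG_spec (T : OrderTable.{u}) {S : Type u} [Group S] (hk : IsKnownSimple' S)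
    (hna : ¬ ∀ a b : S, a * b = b * a) {l : List (ℕ × ℕ)} {q p e Q : ℕ} (hv : valid l (q ^ 6 * num .G2 q) = true)
    (hc : chkG l q p e Q = true) (hd : Nat.card S ∣ q ^ 6 * num .G2 q) (hQ : Q ∣ Nat.card S)
    (hp : p ∣ Nat.card S → p ^ e ∣ Nat.card S) : Nat.card S = q ^ 6 * num .G2 q := by
  obtain ⟨g, hg, hr, hcard⟩ := exists_good T hk hna hv hd
  have h1 := List.all_eq_true.1 hc g hg
  rw [Bool.or_eq_true, Bool.or_eq_true, Bool.and_eq_true, ← hcard] at h1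
  rcases h1 with (h1 | h1) | ⟨h1, h2⟩
  · exact Nat.eq_of_beq_eq_true h1
  · rw [Nat.mod_eq_zero_of_dvd hQ] at h1
    exact absurd h1 (by decide)
  · have h3 := hp (Nat.dvd_of_mod_eq_zero (Nat.eq_of_beq_eq_true h1))
    rw [Nat.mod_eq_zero_of_dvd h3] at h2
    exact absurd h2 (by decide)

theorem small_one (T : OrderTable.{u}) {S : Type u} [Group S] (hk : IsKnownSimple' S)
    (hna : ¬ ∀ a b : S, a * b = b * a) {l : List (ℕ × ℕ)} {q p e m m' m0 m1 w0 : ℕ} (hT : Tor q m m')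
    (hc : valid l (q ^ 6 * num .G2 q) = true ∧ chkG l q p e (m0 * w0) = true) (hT0 : Tor q m0 m1)
    (hpp : p.Prime) (hpq : p ∣ q) (he : p * p ^ e = q ^ 6) (hw0 : w0 ∣ m1) (hw3 : ¬ 3 ∣ w0) (hcop : m0.Coprime w0)
    (hd : Nat.card S ∣ q ^ 6 * num .G2 q) (hm : m ∣ Nat.card S) (hw : ∀ w, w ∣ m' → ¬ 3 ∣ w → w ∣ Nat.card S)
    (hp : ∀ p, p.Prime → p ∣ q → p ∣ Nat.card S → q ^ 6 ∣ p * Nat.card S) : Nat.card S = q ^ 6 * num .G2 q := by
  have h1 : m = m0 ∧ m' = m1 := by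
    rcases hT with ⟨a1, a2, a3⟩ | ⟨a1, a2, a3⟩ <;> rcases hT0 with ⟨b1, b2, b3⟩ | ⟨b1, b2, b3⟩ <;> omega
  obtain ⟨rfl, rfl⟩ := h1
  refine chkG_spec T hk hna hc.1 hc.2 hd (hcop.mul_dvd_of_dvd_of_dvd hm (hw _ hw0 hw3)) fun h => ?_
  have h2 := hp p hpp hpq h
  rw [← he] at h2
  exact Nat.dvd_of_mul_dvd_mul_left hpp.pos h2

theorem chk_3 : valid [(2, 6), (3, 6), (7, 1), (13, 1)] (3 ^ 6 * num .G2 3) = true ∧
    chkG [(2, 6), (3, 6), (7, 1), (13, 1)] 3 3 5 91 = true := by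
  decide +kernel

theorem chk_4 : valid [(2, 12), (3, 3), (5, 2), (7, 1), (13, 1)] (4 ^ 6 * num .G2 4) = true ∧
    chkG [(2, 12), (3, 3), (5, 2), (7, 1), (13, 1)] 4 2 11 91 = true := by
  decide +kernel

theorem chk_5 : valid [(2, 6), (3, 3), (5, 6), (7, 1), (31, 1)] (5 ^ 6 * num .G2 5) = true ∧
    chkG [(2, 6), (3, 3), (5, 6), (7, 1), (31, 1)] 5 5 5 217 = true := by
  decide +kernel

theorem chk_7 : valid [(2, 8), (3, 3), (7, 6), (19, 1), (43, 1)] (7 ^ 6 * num .G2 7) = true ∧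
    chkG [(2, 8), (3, 3), (7, 6), (19, 1), (43, 1)] 7 7 5 817 = true := by
  decide +kernel

theorem chk_8 : valid [(2, 18), (3, 5), (7, 2), (19, 1), (73, 1)] (8 ^ 6 * num .G2 8) = true ∧
    chkG [(2, 18), (3, 5), (7, 2), (19, 1), (73, 1)] 8 2 17 1387 = true := by
  decide +kernel

theorem chk_9 : valid [(2, 8), (3, 12), (5, 2), (7, 1), (13, 1), (73, 1)] (9 ^ 6 * num .G2 9) = true ∧
    chkG [(2, 8), (3, 12), (5, 2), (7, 1), (13, 1), (73, 1)] 9 3 11 6643 = true := by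
  decide +kernel

theorem chk_11 : valid [(2, 6), (3, 3), (5, 2), (7, 1), (11, 6), (19, 1), (37, 1)] (11 ^ 6 * num .G2 11) = true ∧
    chkG [(2, 6), (3, 3), (5, 2), (7, 1), (11, 6), (19, 1), (37, 1)] 11 11 5 4921 = true := by
  decide +kernel

theorem chk_13 : valid [(2, 6), (3, 3), (7, 2), (13, 6), (61, 1), (157, 1)] (13 ^ 6 * num .G2 13) = true ∧
    chkG [(2, 6), (3, 3), (7, 2), (13, 6), (61, 1), (157, 1)] 13 13 5 9577 = true := by
  decide +kernel

/-- **Small `q`.** -/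
theorem small (T : OrderTable.{u}) {S : Type u} [Group S] (hk : IsKnownSimple' S)
    (hna : ¬ ∀ a b : S, a * b = b * a) {q m m' : ℕ} (hT : Tor q m m')
    (hq : q = 3 ∨ q = 4 ∨ q = 5 ∨ q = 7 ∨ q = 8 ∨ q = 9 ∨ q = 11 ∨ q = 13)
    (hd : Nat.card S ∣ q ^ 6 * num .G2 q) (hm : m ∣ Nat.card S) (hw : ∀ w, w ∣ m' → ¬ 3 ∣ w → w ∣ Nat.card S)
    (hp : ∀ p, p.Prime → p ∣ q → p ∣ Nat.card S → q ^ 6 ∣ p * Nat.card S) : Nat.card S = q ^ 6 * num .G2 q := by
  rcases hq with rfl | rfl | rfl | rfl | rfl | rfl | rfl | rfl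
  · exact small_one T hk hna (m0 := 13) (m1 := 7) (w0 := 7) hT chk_3 (by unfold Tor; decide) (by norm_num : Nat.Prime 3)
      (by norm_num) (by norm_num) (by norm_num) (by norm_num) (by norm_num) hd hm hw hp
  · exact small_one T hk hna (m0 := 13) (m1 := 21) (w0 := 7) hT chk_4 (by unfold Tor; decide) (by norm_num : Nat.Prime 2)
      (by norm_num) (by norm_num) (by norm_num) (by norm_num) (by norm_num) hd hm hw hp
  · exact small_one T hk hna (m0 := 31) (m1 := 21) (w0 := 7) hT chk_5 (by unfold Tor; decide) (by norm_num : Nat.Prime 5)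
      (by norm_num) (by norm_num) (by norm_num) (by norm_num) (by norm_num) hd hm hw hp
  · exact small_one T hk hna (m0 := 43) (m1 := 57) (w0 := 19) hT chk_7 (by unfold Tor; decide) (by norm_num : Nat.Prime 7)
      (by norm_num) (by norm_num) (by norm_num) (by norm_num) (by norm_num) hd hm hw hp
  · exact small_one T hk hna (m0 := 73) (m1 := 57) (w0 := 19) hT chk_8 (by unfold Tor; decide) (by norm_num : Nat.Prime 2)
      (by norm_num) (by norm_num) (by norm_num) (by norm_num) (by norm_num) hd hm hw hp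
  · exact small_one T hk hna (m0 := 91) (m1 := 73) (w0 := 73) hT chk_9 (by unfold Tor; decide) (by norm_num : Nat.Prime 3)
      (by norm_num) (by norm_num) (by norm_num) (by norm_num) (by norm_num) hd hm hw hp
  · exact small_one T hk hna (m0 := 133) (m1 := 111) (w0 := 37) hT chk_11 (by unfold Tor; decide) (by norm_num : Nat.Prime 11)
      (by norm_num) (by norm_num) (by norm_num) (by norm_num) (by norm_num) hd hm hw hp
  · exact small_one T hk hna (m0 := 157) (m1 := 183) (w0 := 61) hT chk_13 (by unfold Tor; decide) (by norm_num : Nat.Prime 13)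
      (by norm_num) (by norm_num) (by norm_num) (by norm_num) (by norm_num) hd hm hw hp

end Cfsg.Agent.H962.NumG2
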