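import Cfsg.Agent.H962.ExF4
import Cfsg.Agent.H962.NumG2b
import Cfsg.Agent.H364.Iso3

/-!
# A finite group with the order and the element orders of `G₂(q)` (helper962)
-/

set_option autoImplicit false

namespace Cfsg.Agent.H962.ExG2

open Subgroup Cfsg Cfsg.Agent.OrdDiv Cfsg.Lie
open Cfsg.Agent.H902 Cfsg.Agent.H902.Art Cfsg.Agent.H364 Cfsg.Agent.H364.Slack
open Cfsg.Agent.H962 Cfsg.Agent.H962.IdSame Cfsg.Agent.H962.CycNum Cfsg.Agent.H962.ExIsol
open Cfsg.Agent.H962.NumG2 (Tor exists_tor M_eq phi6_odd phi3_zmod order_six dvd_phi6 le_sq)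
open Cfsg.Agent.H962.ExF4 (order_q order_dvd_a)
open Cfsg.Agent.H378.ExcAdj Cfsg.Agent.H378.RegFin Cfsg.Agent.BpExc.RowsUntw Cfsg.Agent.BpExc.FamExt Cfsg.Agent.BpExc.FamUntw
  Cfsg.Agent.BpExc.FamInst Cfsg.Agent.BpExc.LangFr Cfsg.Agent.BpExc.FamField

universe u

theorem g2_real (F : Type) [Field F] [Fintype F] {p f : ℕ} (hp : p.Prime) (hf : 1 ≤ f) (hF : Fintype.card F = p ^ f)
    (h3 : 3 ≤ p ^ f) : Art.Real .G2 p f (Nat.card ↥(chevG2.group F)) := by
  refine ⟨hp, hf, h3, ?_⟩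
  have h := table.{0}.g2 F
  change 1 * _ = (p ^ f) ^ 6 * (((p ^ f) ^ 2 - 1) * ((p ^ f) ^ 6 - 1))
  rw [h, hF]
  ring

theorem eval6 (q : ℕ) : ((Polynomial.cyclotomic 6 ℤ).eval ((q : ℕ) : ℤ)).natAbs = q ^ 2 - q + 1 := by
  rw [Polynomial.cyclotomic_six]
  simp only [Polynomial.eval_add, Polynomial.eval_sub, Polynomial.eval_pow, Polynomial.eval_X, Polynomial.eval_one]
  have h2 : ((q : ℤ) ^ 2 - (q : ℤ) + 1) = ((q ^ 2 - q + 1 : ℕ) : ℤ) := by
    push_cast [Nat.cast_sub (le_sq q)]; ring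
  rw [h2, Int.natAbs_natCast]

/-- primes of order 6 and primes which do not divide `q ^ 2 - q + 1` -/
theorem noEdge6 {F : Type} [Field F] [Fintype F] {q : ℕ} (hF : Fintype.card F = q) {r s : ℕ} (hr : r.Prime)
    (hs : s.Prime) (h : orderOf (q : ZMod r) = 6) (hsq : ¬ s ∣ q ^ 2 - q + 1) : NoEdge ↥(chevG2.group F) r s := by
  refine noEdge_of_cent hr hs (k := q ^ 2 - q + 1) (fun x hx => ?_) hsq
  have hod : od (Nat.card F) r = 6 := by
    show orderOf ((Nat.card F : ℕ) : ZMod r) = 6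
    rw [Nat.card_eq_fintype_card, hF, h]
  have := (cent_od g2T inv_G2 one_ne_zero hr hx hod (by decide) (by norm_num)).2
  have hF' : Nat.card F = q := by rw [Nat.card_eq_fintype_card, hF]
  rwa [hF', eval6] at this

theorem card_le {p f M : ℕ} (hY : Art.Real .G2 p f M) : M ≤ p ^ (f * 14) := by
  have h2 : Art.num .G2 (p ^ f) ≤ (p ^ f) ^ 8 := by
    change ((p ^ f) ^ 2 - 1) * ((p ^ f) ^ 6 - 1) ≤ _
    calc _ ≤ (p ^ f) ^ 2 * (p ^ f) ^ 6 := Nat.mul_le_mul (Nat.sub_le _ _) (Nat.sub_le _ _)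
      _ = _ := by ring
  calc M ≤ (p ^ f) ^ 6 * Art.num .G2 (p ^ f) := hY.M_le
    _ ≤ (p ^ f) ^ 6 * (p ^ f) ^ 8 := Nat.mul_le_mul_left _ h2
    _ = _ := by rw [← pow_add, ← pow_mul]

/-- the isolated torus -/
theorem exists_isol {F : Type} [Field F] [Fintype F] {q m m' : ℕ} (hF : Fintype.card F = q) (hT : Tor q m m') :
    ∃ T : Subgroup ↥(chevG2.group F), Isol ↥(chevG2.group F) T m := by
  have h3 : ¬ 3 ∣ m := fun h => (hT.ne h).2 rfl
  rcases hT with ⟨-, h1, -⟩ | ⟨-, h1, -⟩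
  · exact isol_of_exact (H129.CycT.exact_G2_3 (F := F) hF (by rw [h1]; push_cast; ring) h3)
  · refine isol_of_exact (H129.CycT.exact_G2_6 (F := F) hF ?_ h3)
    rw [h1, NumG2.phi6_cast]

set_option maxHeartbeats 1000000 in
/-- **The simple factor has the order of `G`.** -/
theorem core {G : Type u} [Group G] [Finite G] {F : Type} [Field F] [Fintype F] {p f : ℕ}
    (hF : Fintype.card F = p ^ f) (hY : Art.Real .G2 p f (Nat.card G))
    (hcard : Nat.card G = Nat.card ↥(chevG2.group F))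
    (hs1 : ∀ x : G, ∃ y : ↥(chevG2.group F), orderOf y = orderOf x)
    (hs2 : ∀ y : ↥(chevG2.group F), ∃ x : G, orderOf x = orderOf y) :
    ∃ (K : Subgroup G) (_ : K.Normal) (H : Subgroup (G ⧸ K)), IsSimpleGroup H ∧ Nat.card H = Nat.card G := by
  have hp := hY.hp
  have hf := hY.hf
  have hq3 : 3 ≤ p ^ f := hY.ok
  have hG0 : Nat.card G ≠ 0 := Nat.card_pos.ne'
  obtain ⟨m, m', hTor⟩ := exists_tor (p ^ f)
  -- the isolated torus
  obtain ⟨T0, hT0⟩ := exists_isol hF hTor
  obtain ⟨T, hT⟩ := isol_transfer hs1 hs2 hcard hT0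
  have hm1 : 1 < m := by have := hTor.gt hq3; omega
  have hm6 := hTor.coprime_six
  have h2m : ¬ 2 ∣ m := fun h => (hTor.ne h).1 rfl
  have h3m : ¬ 3 ∣ m := fun h => (hTor.ne h).2 rfl
  obtain ⟨hp3, hp6⟩ := NumG2.p_not_dvd hY
  have hpm : ¬ p ∣ m := by
    intro h
    rcases hTor with ⟨-, h1, -⟩ | ⟨-, h1, -⟩
    · rw [h1] at h; exact hp3 h
    · rw [h1] at h; exact hp6 h
  obtain ⟨K, hK, hKm, hparts, hcase⟩ := ExCore.spec_struct hT hm1 h2m (n0 := 6) (by norm_num)
    fun r hr hrm => NumG2.mod6 hY hTor hr hrm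
  have hKG : Nat.card K ∣ Nat.card G := Subgroup.card_subgroup_dvd_card K
  have hK0 : Nat.card K ≠ 0 := Nat.card_pos.ne'
  -- the primes of `m'`
  have hsecK : ∀ s, s.Prime → s ≠ 3 → s ∣ m' → ¬ s ∣ Nat.card K := fun s hs hs3 hsd h =>
    (hs.factorization_pos_of_dvd hK0 h).ne'
      (NumG2.sec_zero hY hTor hs hs3 hsd ((Nat.ordProj_dvd _ _).trans hKG) (hparts s hs))
  -- the primes of order 6 f
  obtain ⟨r, hr, hrp, hro⟩ := SameOut.exists_ppd hp (n := f * 6) (by omega) (fun h => by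
    obtain ⟨h1, h2⟩ := h
    have h3 : f = 1 := by omega
    rw [h1, h3] at hq3
    omega)
  have hrq := order_q hf hro
  have hr6 := dvd_phi6 hr hrq
  have hrG : r ∣ Nat.card G := hY.dvd_of_order_DM hr hro (by show 3 ≤ f * 6; omega)
  have hr3' : r ≠ 3 := by
    have := order_lt hr hrq (by norm_num)
    omega
  have hrK : ¬ r ∣ Nat.card K := fun h => by
    rcases hTor with ⟨h1, h2, h3⟩ | ⟨h1, h2, h3⟩
    · exact hsecK r hr hr3' (h3 ▸ hr6) h
    · have := Nat.dvd_gcd h (h2 ▸ hr6 : r ∣ m)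
      rw [hKm] at this
      exact hr.one_lt.ne' (Nat.dvd_one.1 this)
  have hEr : NoEdge G r p := noEdge_transfer hs1 (noEdge6 hF hr hp hrq hp6)
  set a := (Nat.card K).factorization p with hadef
  have ha6 : f * 6 ∣ a := order_dvd_a K hp hr hrp hro hrG hrK hEr
  have hpG : (Nat.card G).factorization p = f * 6 := by
    have h1 := hY.P_self
    rw [← pow_mul] at h1
    exact Nat.pow_right_injective hp.two_le h1
  have hale : a ≤ f * 6 := by
    rw [← hpG, hadef]
    exact (Nat.factorization_le_iff_dvd hK0 hG0).2 hKG p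
  have hGm' : m' ∣ Nat.card G := by
    rw [NumG2.M_m hY hTor]
    exact Dvd.dvd.mul_left (Dvd.dvd.mul_left (Dvd.intro_left _ rfl) _) _
  have hm'0 : m' ≠ 0 := by rintro rfl; exact hG0 (Nat.eq_zero_of_zero_dvd hGm')
  have hm'2 : ¬ 2 ∣ m' := by
    intro h
    rcases hTor with ⟨-, -, h1⟩ | ⟨-, -, h1⟩
    · rw [h1] at h; exact phi6_odd h
    · rw [h1] at h; exact NumD4.phi3_odd h
  -- the simple case
  rcases hcase with hFrob | ⟨H, hHn, hHs, hHna, hHG, hout, hmH, hidx, hidxlt⟩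
  · exfalso
    obtain ⟨s, hs, hs3, hsd⟩ := NumG2.exists_sec hTor hq3
    have hsK := hsecK s hs hs3 hsd
    have hsG : s ∣ Nat.card G := hsd.trans hGm'
    rw [hFrob] at hsG
    rcases hs.dvd_mul.1 hsG with h | h
    · exact hsK h
    · rcases hs.dvd_mul.1 h with h | h
      · have h1 := hTor.order hs h
        have h2 := hTor.order' hs hs3 hsd
        omega
      · have h5 : s ∣ 2 * 3 := h
        rcases hs.dvd_mul.1 h5 with h6 | h6
        · have h7 := (Nat.prime_dvd_prime_iff_eq hs Nat.prime_two).1 h6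
          subst h7
          exact hm'2 hsd
        · exact hs3 ((Nat.prime_dvd_prime_iff_eq hs Nat.prime_three).1 h6)
  refine ⟨K, hK, H, hHs, ?_⟩
  have hH0 : Nat.card H ≠ 0 := Nat.card_pos.ne'
  have hI0 : H.index ≠ 0 := Subgroup.index_ne_zero_of_finite
  have hIle : H.index ≤ 3 := by
    obtain ⟨k, hk⟩ := hidx
    have hk2 : 2 ≤ k := by
      by_contra hcon
      have : k = 0 ∨ k = 1 := by omega
      rcases this with rfl | rfl
      · omega
      · rw [mul_one] at hk; omega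
    nlinarith
  have hHdG : Nat.card H ∣ Nat.card G := by
    rw [← hHG]; exact (Dvd.intro_left _ rfl).trans (Dvd.intro_left _ rfl)
  have ha : a = 0 ∨ a = f * 6 := by
    obtain ⟨k, hk⟩ := ha6
    rcases Nat.eq_zero_or_pos k with rfl | hk0
    · left; rw [hk, mul_zero]
    · right
      have : f * 6 * 1 ≤ f * 6 * k := Nat.mul_le_mul_left _ hk0
      omega
  have hIfac : H.index.factorization p ≤ 1 ∧ (p ≠ 2 → p ≠ 3 → H.index.factorization p = 0) := by
    constructor
    · by_contra hcon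
      have h2 : p ^ 2 ∣ H.index := (hp.pow_dvd_iff_le_factorization hI0).2 (by omega)
      have h3 := Nat.le_of_dvd (Nat.pos_of_ne_zero hI0) h2
      have h4 : 2 ^ 2 ≤ p ^ 2 := Nat.pow_le_pow_left hp.two_le 2
      omega
    · intro hp2 hp3
      apply Nat.factorization_eq_zero_of_not_dvd
      intro h
      have h3 := Nat.le_of_dvd (Nat.pos_of_ne_zero hI0) h
      have := hp.two_le
      omega
  have hwH : ∀ w, w ∣ m' → ¬ 3 ∣ w → w ∣ Nat.card H := by
    intro w hwm hw3
    have hw0 : w ≠ 0 := by rintro rfl; exact hm'0 (Nat.eq_zero_of_zero_dvd hwm)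
    have hwK : w.Coprime (Nat.card K) := Nat.coprime_of_dvd fun s hs h1 h2 =>
      hsecK s hs (by rintro rfl; exact hw3 h1) (h1.trans hwm) h2
    have hwI : w.Coprime H.index := Nat.coprime_of_dvd fun s hs h1 h2 => by
      have h3 : s ∣ 2 * 3 := h2.trans hidx
      rcases hs.dvd_mul.1 h3 with h4 | h4
      · have h5 := (Nat.prime_dvd_prime_iff_eq hs Nat.prime_two).1 h4
        subst h5
        exact hm'2 (h1.trans hwm)
      · have h5 := (Nat.prime_dvd_prime_iff_eq hs Nat.prime_three).1 h4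
        subst h5
        exact hw3 h1
    have h1 := hwm.trans hGm'
    rw [← hHG] at h1
    exact hwI.dvd_of_dvd_mul_left (hwK.dvd_of_dvd_mul_left h1)
  have hM' : Nat.card G = (p ^ f) ^ 6 * num .G2 (p ^ f) := M_eq hY
  -- the `p`-part of `H`
  have hpH : ∀ p', p'.Prime → p' ∣ p ^ f → p' ∣ Nat.card H → (p ^ f) ^ 6 ∣ p' * Nat.card H := by
    intro p' hp' h1 h2
    have h3 := (Nat.prime_dvd_prime_iff_eq hp' hp).1 (hp'.dvd_of_dvd_pow h1)
    subst h3
    have h4 : a + (H.index.factorization p' + (Nat.card H).factorization p') = f * 6 := by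
      rw [← hpG, ← hHG, Nat.factorization_mul hK0 (Nat.mul_ne_zero hI0 hH0), Finsupp.add_apply,
        Nat.factorization_mul hI0 hH0, Finsupp.add_apply]
    have h5 := hp.factorization_pos_of_dvd hH0 h2
    have h6 : a = 0 := by omega
    have h7 := hIfac.1
    have h8 : p' ^ (f * 6 - 1) ∣ Nat.card H := (hp.pow_dvd_iff_le_factorization hH0).2 (by omega)
    have h9 : (p' ^ f) ^ 6 = p' * p' ^ (f * 6 - 1) := by
      rw [← pow_mul, ← pow_succ']
      congr 1
      omega
    rw [h9]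
    exact Nat.mul_dvd_mul_left _ h8
  by_cases hsmall : p ^ f = 3 ∨ p ^ f = 4 ∨ p ^ f = 5 ∨ p ^ f = 7 ∨ p ^ f = 8 ∨ p ^ f = 9 ∨ p ^ f = 11 ∨ p ^ f = 13
  · rw [hM']
    exact NumG2.small table (Cfsg.Agent.S0000.result (G := H)) hHna hTor hsmall (hM' ▸ hHdG) hmH hwH hpH
  rcases ha with ha | ha
  · -- `p ∤ |K|`
    have hpK : ¬ p ∣ Nat.card K := fun h => (hp.factorization_pos_of_dvd hK0 h).ne' ha
    refine ExCore.zero_case hY .G2 (A := 14) (card_le hY) K H hHna hHG hout hpK ?_ ?_ ?_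
    · show cc p + f * 14 ≤ 3 * (f * 6 - _) + _
      have hi := hIfac.1
      unfold cc
      split_ifs with h2 h3
      · have hf4 : 4 ≤ f := by
          by_contra hcon
          apply hsmall
          have : f = 1 ∨ f = 2 ∨ f = 3 := by omega
          rcases this with h | h | h
          · rw [h, h2] at hq3; norm_num at hq3
          · rw [h, h2]; norm_num
          · rw [h, h2]; norm_num
        omega
      · have hf2 : 2 ≤ f := by
          by_contra hcon
          apply hsmall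
          have : f = 1 := by omega
          rw [this, h3]; norm_num
        omega
      · have hj := hIfac.2 h2 h3
        omega
    · intro t ht hto htK
      have htq : orderOf ((p ^ f : ℕ) : ZMod t) = 6 := order_q hf hto
      have ht6 := dvd_phi6 ht htq
      have ht3' : t ≠ 3 := by
        have := order_lt ht htq (by norm_num)
        omega
      rcases hTor with ⟨h1, h2, h3⟩ | ⟨h1, h2, h3⟩
      · exact hsecK t ht ht3' (h3 ▸ ht6) htK
      · have := Nat.dvd_gcd htK (h2 ▸ ht6 : t ∣ m)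
        rw [hKm] at this
        exact ht.one_lt.ne' (Nat.dvd_one.1 this)
    · intro _ g hfg hIK
      have hK1 : Nat.card K ≡ 1 [MOD m] := modEq_one_of_parts hK0 hparts
      have hle := hTor.le
      have hqg : p ^ f = (p ^ g) ^ 2 := by rw [hfg, mul_comm, pow_mul]
      have hg2 : 2 ≤ p ^ g := by
        by_contra hcon
        have : (p ^ g) ^ 2 ≤ 1 ^ 2 := Nat.pow_le_pow_left (by omega) 2
        omega
      rw [hqg] at hle
      generalize p ^ g = Q at hIK hle hg2
      have h4 : Q ^ 2 + Q + 1 < m := by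
        refine lt_of_lt_of_le ?_ hle
        have h5 : 4 ≤ Q ^ 2 := by nlinarith
        have h6 : 4 * Q ^ 2 ≤ (Q ^ 2) ^ 2 := by rw [sq (Q ^ 2)]; exact Nat.mul_le_mul_right _ h5
        have h7 : 2 * Q ≤ Q ^ 2 := by rw [sq]; exact Nat.mul_le_mul_right _ hg2
        omega
      have h5 : Nat.card K ≤ Q ^ 2 + Q + 1 := by
        rw [← hIK]; exact Nat.le_mul_of_pos_left _ (Nat.pos_of_ne_zero hI0)
      have h6 : Nat.card K = 1 := Nat.ModEq.eq_of_lt_of_lt hK1 (by omega) hm1
      rw [h6, mul_one] at hIK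
      have : 4 ≤ Q ^ 2 := by nlinarith
      omega
  · -- the full case
    exfalso
    have hpIH : ¬ p ∣ H.index * Nat.card H := by
      intro h
      have h1 : p ^ (a + 1) ∣ Nat.card G := by
        rw [← hHG, pow_succ]
        exact Nat.mul_dvd_mul (Nat.ordProj_dvd _ _) h
      have h2 := (hp.pow_dvd_iff_le_factorization hG0).1 h1
      omega
    have hpH' : ¬ p ∣ Nat.card H := fun h => hpIH (Dvd.dvd.mul_left h _)
    have h2H : 2 ∣ Nat.card H := two_dvd_card hHna
    have hp2 : p ≠ 2 := by rintro rfl; exact hpH' h2H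
    have hodd : Odd (p ^ f) := (hp.odd_of_ne_two hp2).pow
    have hq17 : 17 ≤ p ^ f := by
      by_contra hcon
      have h15 : p ^ f = 15 := by
        obtain ⟨k, hk⟩ := hodd
        omega
      have h3 : 3 ∣ p ^ f := by rw [h15]; norm_num
      have h5 : 5 ∣ p ^ f := by rw [h15]; norm_num
      have h6 := (Nat.prime_dvd_prime_iff_eq Nat.prime_three hp).1 (Nat.prime_three.dvd_of_dvd_pow h3)
      have h7 := (Nat.prime_dvd_prime_iff_eq (by norm_num : Nat.Prime 5) hp).1
        ((by norm_num : Nat.Prime 5).dvd_of_dvd_pow h5)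
      omega
    have hprod0 : ∀ (κ : ℕ), Nat.card K = p ^ a * κ → κ * (H.index * Nat.card H) = num .G2 (p ^ f) := by
      intro κ hκ
      have h2 : p ^ a = (p ^ f) ^ 6 := by rw [ha, pow_mul]
      have h3 : (p ^ f) ^ 6 * (κ * (H.index * Nat.card H)) = (p ^ f) ^ 6 * num .G2 (p ^ f) := by
        rw [← hM', ← hHG, hκ, ← h2]; ring
      exact Nat.eq_of_mul_eq_mul_left (pow_pos (by omega) _) h3
    -- `|K| = p ^ a`
    have hother : ∀ ℓ, ℓ.Prime → ℓ ≠ p → ¬ ℓ ∣ Nat.card K := by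
      intro ℓ hℓ hℓp hℓK
      apply (hℓ.factorization_pos_of_dvd hK0 hℓK).ne'
      exact NumG2.elim hY hTor hp2 hq17 hℓ hℓp ((Nat.ordProj_dvd _ _).trans hKG) (hparts ℓ hℓ)
    obtain ⟨κ, hκ⟩ : p ^ a ∣ Nat.card K := Nat.ordProj_dvd _ _
    have hκ0 : κ ≠ 0 := by rintro rfl; rw [mul_zero] at hκ; exact hK0 hκ
    have hpκ : ¬ p ∣ κ := by
      intro h
      have h1 : p ^ (a + 1) ∣ Nat.card K := by
        rw [hκ, pow_succ]; exact Nat.mul_dvd_mul_left _ h
      have h2 := (hp.pow_dvd_iff_le_factorization hK0).1 h1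
      omega
    have hκ1 : κ = 1 := by
      by_contra hne
      obtain ⟨d, hd, hdκ⟩ := Nat.exists_prime_and_dvd hne
      refine hother d hd ?_ (hκ ▸ Dvd.dvd.mul_left hdκ _)
      rintro rfl
      exact hpκ hdκ
    have hprod := hprod0 κ hκ
    rw [hκ1, one_mul] at hprod
    have hedgeH : ∀ x y, NoEdge G x y → NoEdge H x y := fun x y h => noEdge_subgroup H (noEdge_quotient K h)
    refine Full.full_false hHna hp hpH' hm6 hmH ?_ (fun t ht htm => hedgeH _ _ (hT.edge t 3 ht Nat.prime_three htm h3m))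
      (fun x hx hc => ?_) ?_
    · have hle := hTor.le
      have h1 : p ≤ p ^ f := Nat.le_self_pow (by omega) p
      refine lt_of_le_of_lt (Nat.mul_le_mul (show p - 1 ≤ p ^ f - 1 by omega) (show p - 3 ≤ p ^ f - 3 by omega)) ?_
      obtain ⟨x, hx⟩ := Nat.exists_eq_add_of_le hq3
      rw [hx] at hle ⊢
      have e1 : 3 + x - 1 = 2 + x := by omega
      have e2 : 3 + x - 3 = x := by omega
      have e3 : (3 + x) ^ 2 - (3 + x) + 1 = x ^ 2 + 5 * x + 7 := by
        have : (3 + x) ^ 2 = x ^ 2 + 5 * x + 6 + (3 + x) := by ring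
        rw [this, Nat.add_sub_cancel]
      rw [e1, e2]
      rw [e3] at hle
      have e4 : (2 + x) * x = x ^ 2 + 2 * x := by ring
      rw [e4]
      omega
    · rw [hc] at hprod
      exact NumG2.no_spor hx (Nat.pos_of_ne_zero hI0) hIle hprod
    · intro X t g hX htp
      exact NumG2.cross hY hp2 hq17 hX htp hprod hIle

end Cfsg.Agent.H962.ExG2
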