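import Cfsg.Agent.H129.CycRow
import Cfsg.Agent.H364.Iso3

/-!
# Isolated cyclic tori: transfer from the exceptional groups to groups with the same order and element orders
-/

set_option autoImplicit false

namespace Cfsg.Agent.H962.ExIsol

open Subgroup Cfsg.Agent.H129.CycT Cfsg.Agent.H364

/-- a cyclic subgroup equal to the centraliser of each of its non-trivial elements is an isolated Hall subgroup -/
theorem isol_of_exact {G : Type*} [Group G] [Finite G] {m : ℕ} (h : CycExact G m) : ∃ T : Subgroup G, Isol G T m := by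
  obtain ⟨T, h1, h2, h3⟩ := h
  have hcent : ∀ r : ℕ, r.Prime → ∀ y ∈ T, orderOf y = r → Subgroup.centralizer {y} ≤ T := fun r hr y hy hyr =>
    (h3 y hy (by rintro rfl; rw [orderOf_one] at hyr; exact hr.one_lt.ne hyr)).le
  have hmd : m ∣ Nat.card G := h2 ▸ Subgroup.card_subgroup_dvd_card T
  refine ⟨T, h1, h2, ?_, ?_⟩
  · -- Hall
    rw [← h2]
    refine Nat.coprime_of_dvd fun r hr hrm hrd => ?_
    have : Fact r.Prime := ⟨hr⟩
    obtain ⟨⟨y, hy⟩, hyr⟩ := exists_prime_orderOf_dvd_card' (G := ↥T) r hrm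
    rw [Subgroup.orderOf_mk] at hyr
    have hpy : IsPGroup r ↥(Subgroup.zpowers y) := by
      rw [IsPGroup.iff_card]
      exact ⟨1, by rw [Nat.card_zpowers, hyr, pow_one]⟩
    obtain ⟨P, hP⟩ := hpy.exists_le_sylow
    have hyP : y ∈ (P : Subgroup G) := hP (Subgroup.mem_zpowers y)
    have heq : ∀ y ∈ T, orderOf y = r → Subgroup.centralizer {y} = T := fun y hy hyr =>
      le_antisymm (hcent r hr y hy hyr) (le_centralizer_of_cyclic h1 hy)
    have hnt : Nontrivial ↥(P : Subgroup G) := by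
      refine ⟨⟨⟨y, hyP⟩, 1, fun h => ?_⟩⟩
      have h1 : y = 1 := congrArg Subtype.val h
      rw [h1, orderOf_one] at hyr
      exact hr.one_lt.ne hyr
    have hZ : Nontrivial ↥(Subgroup.center ↥(P : Subgroup G)) := P.2.center_nontrivial
    have hZp : IsPGroup r ↥(Subgroup.center ↥(P : Subgroup G)) := P.2.to_subgroup _
    obtain ⟨z, hz⟩ : ∃ z : ↥(Subgroup.center ↥(P : Subgroup G)), orderOf z = r := by
      refine exists_prime_orderOf_dvd_card' r ?_
      obtain ⟨n, hn0, hn⟩ := (hZp.nontrivial_iff_card).1 hZ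
      rw [hn]
      exact dvd_pow_self r hn0.ne'
    have hzr : orderOf ((z : ↥(P : Subgroup G)) : G) = r := by
      rw [Subgroup.orderOf_coe, Subgroup.orderOf_coe, hz]
    have hzc : ∀ p ∈ (P : Subgroup G), p * ((z : ↥(P : Subgroup G)) : G) = ((z : ↥(P : Subgroup G)) : G) * p := by
      intro p hp
      exact congrArg Subtype.val (Subgroup.mem_center_iff.1 z.2 ⟨p, hp⟩)
    have hzT : ((z : ↥(P : Subgroup G)) : G) ∈ T := by
      rw [← heq y hy hyr, Subgroup.mem_centralizer_singleton_iff]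
      exact (hzc y hyP).symm
    have hPT : (P : Subgroup G) ≤ T := by
      intro p hp
      rw [← heq _ hzT hzr, Subgroup.mem_centralizer_singleton_iff]
      exact hzc p hp
    have h4 : r * Nat.card ↥T ∣ Nat.card G := by
      obtain ⟨k, hk⟩ := hrd
      have h5 : Nat.card ↥T * (Nat.card G / Nat.card ↥T) = Nat.card G := Nat.mul_div_cancel' (h2 ▸ hmd)
      rw [← h5, hk]
      exact ⟨k, by ring⟩
    have h6 : Nat.card (P : Subgroup G) ∣ Nat.card T := Subgroup.card_dvd_of_le hPT
    rw [P.card_eq_multiplicity] at h6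
    have h7 : r ^ ((Nat.card G).factorization r + 1) ∣ Nat.card G := by
      rw [pow_succ, mul_comm]
      exact (Nat.mul_dvd_mul_left r h6).trans h4
    exact Nat.pow_succ_factorization_not_dvd Nat.card_pos.ne' hr h7
  · intro r s hr hs hrm hsm z hz
    have hx : orderOf (z ^ s) = r := by
      rw [orderOf_pow' _ hs.ne_zero, hz, Nat.gcd_eq_right (dvd_mul_left s r), Nat.mul_div_cancel _ hs.pos]
    obtain ⟨g, -, hg⟩ := centralizer_conj h1 hr (h2 ▸ hrm) (hcent r hr) hx
    have h4 : g * z * g⁻¹ ∈ T := (hg z).1 (Subgroup.mem_centralizer_singleton_iff.2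
      ((Commute.refl z).pow_right s).eq)
    have h5 : orderOf (g * z * g⁻¹) = r * s := by
      rw [← hz]
      exact orderOf_injective (MulAut.conj g).toMonoidHom (MulAut.conj g).injective z
    have h6 := orderOf_dvd_natCard (⟨_, h4⟩ : ↥T)
    rw [Subgroup.orderOf_mk, h5, h2] at h6
    exact hsm ((dvd_mul_left s r).trans h6)

/-- transfer -/
theorem isol_transfer {G M : Type*} [Group G] [Finite G] [Group M] [Finite M]
    (hs1 : ∀ x : G, ∃ y : M, orderOf y = orderOf x) (hs2 : ∀ y : M, ∃ x : G, orderOf x = orderOf y)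
    (hcard : Nat.card G = Nat.card M) {T : Subgroup M} {m : ℕ} (h : Isol M T m) : ∃ T' : Subgroup G, Isol G T' m := by
  obtain ⟨y, hy⟩ : ∃ y : ↥T, orderOf y = m := by
    obtain ⟨y, hy⟩ := h.cyc.exists_generator
    exact ⟨y, by rw [orderOf_eq_card_of_forall_mem_zpowers hy, h.card]⟩
  obtain ⟨x, hx⟩ := hs2 y
  rw [Subgroup.orderOf_coe, hy] at hx
  refine ⟨Subgroup.zpowers x, inferInstance, by rw [Nat.card_zpowers, hx], by rw [hcard]; exact h.cop, ?_⟩
  intro r s hr hs hrm hsm z hz
  obtain ⟨z', hz'⟩ := hs1 z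
  exact h.edge r s hr hs hrm hsm z' (hz'.trans hz)

theorem noEdge_transfer {G M : Type*} [Group G] [Group M] (hs1 : ∀ x : G, ∃ y : M, orderOf y = orderOf x) {r s : ℕ}
    (h : NoEdge M r s) : NoEdge G r s := by
  intro x hx
  obtain ⟨y, hy⟩ := hs1 x
  exact h y (hy.trans hx)

/-- from the order of the centralisers -/
theorem noEdge_of_cent {G : Type*} [Group G] [Finite G] {r s k : ℕ} (hr : r.Prime) (hs : s.Prime)
    (h : ∀ x : G, orderOf x = r → Nat.card ↥(Subgroup.centralizer {x}) ∣ k) (hsk : ¬ s ∣ k) : NoEdge G r s := by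
  intro z hz
  have hx : orderOf (z ^ s) = r := by
    rw [orderOf_pow' _ hs.ne_zero, hz, Nat.gcd_eq_right (dvd_mul_left s r), Nat.mul_div_cancel _ hs.pos]
  have h1 : z ∈ Subgroup.centralizer {z ^ s} :=
    Subgroup.mem_centralizer_singleton_iff.2 ((Commute.refl z).pow_right s).eq
  have h2 := orderOf_dvd_natCard (⟨z, h1⟩ : ↥(Subgroup.centralizer {z ^ s}))
  rw [Subgroup.orderOf_mk, hz] at h2
  exact hsk ((dvd_mul_left s r).trans (h2.trans (h _ hx)))

end Cfsg.Agent.H962.ExIsol
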