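import Cfsg.Agent.H962.IdSame
import Cfsg.Agent.H364.PSUUnique

/-!
# Simple groups with the order of an exceptional group (helper962)
-/

set_option autoImplicit false

namespace Cfsg.Agent.H962.ExUnique

open Cfsg Cfsg.Agent.OrdDiv Cfsg.Agent.H902 Cfsg.Agent.H902.Art Cfsg.Agent.H902.Names Cfsg.Agent.H364.PSUUnique
open Cfsg.Agent.H962.IdSame

universe u v

/-- the order of an exceptional group is none of the coincidental orders -/
theorem not_small {Y : Sh} {p f M : ℕ} (hY : Art.Real Y p f M) (hE : IsExc Y) :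
    M ≠ 60 ∧ M ≠ 168 ∧ M ≠ 25920 ∧ M ≠ 20160 := by
  have hP : (p ^ f) ^ NN Y ∣ M := by rw [← hY.P_self]; exact Nat.ordProj_dvd _ p
  have h7 : 7 ≤ f * NN Y ∨ (3 ≤ p ∧ 6 ≤ f * NN Y) := by
    have hf := hY.hf
    have h12 : 12 ≤ NN Y → 7 ≤ f * NN Y := fun h => by nlinarith
    cases hE with
    | G2 =>
      have h6 : NN .G2 = 6 := rfl
      rw [h6]
      by_cases h : 2 ≤ f
      · left; omega
      · right
        refine ⟨?_, by omega⟩
        have h1 : f = 1 := by omega
        have h2 := hY.ok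
        have h3 : p ^ f ≠ 2 := by
          have : Ok .G2 p f := hY.ok
          simp only [Ok] at this
          omega
        rw [h1, pow_one] at h3
        have := hY.hp.two_le
        omega
    | F4 => exact Or.inl (h12 (by decide))
    | E6 => exact Or.inl (h12 (by decide))
    | E7 => exact Or.inl (h12 (by decide))
    | E8 => exact Or.inl (h12 (by decide))
    | TE6 => exact Or.inl (h12 (by decide))
    | TD4 => exact Or.inl (h12 (by decide))
  rw [← pow_mul] at hP
  have hp := hY.hp
  have key : ∀ N : ℕ, 0 < N → N < 29184 → (∀ q < 32, 3 ≤ q → N < q ^ 6 ∨ ¬ q ^ 6 ∣ N) → (¬ 2 ^ 7 ∣ N) → M ≠ N := by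
    intro N hN0 hN h3 h2 hM
    rw [hM] at hP
    rcases Nat.lt_or_ge p 3 with h | h
    · have hp2 : p = 2 := by have := hp.two_le; omega
      subst hp2
      rcases h7 with h7 | h7
      · exact h2 ((pow_dvd_pow 2 h7).trans hP)
      · omega
    · have h6 : p ^ 6 ∣ N := by
        rcases h7 with h7 | h7
        · exact (pow_dvd_pow p (by omega)).trans hP
        · exact (pow_dvd_pow p h7.2).trans hP
      have hle := Nat.le_of_dvd hN0 h6
      have hp32 : p < 32 := by
        by_contra hcon
        have : 32 ^ 6 ≤ p ^ 6 := Nat.pow_le_pow_left (by omega) 6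
        omega
      rcases h3 p hp32 h with h4 | h4
      · omega
      · exact h4 h6
  refine ⟨key 60 ?_ ?_ ?_ ?_, key 168 ?_ ?_ ?_ ?_, key 25920 ?_ ?_ ?_ ?_, key 20160 ?_ ?_ ?_ ?_⟩ <;> decide +kernel

/-- **A simple group with the order of an exceptional group.** -/
theorem exc_unique {S : Type u} {T : Type v} [Group S] [Finite S] [IsSimpleGroup S] [Group T] [Finite T]
    [IsSimpleGroup T] {Y : Sh} {p f : ℕ} (hY : Art.Real Y p f (Nat.card T)) (hE : IsExc Y)
    (hcard : Nat.card S = Nat.card T) : Nonempty (S ≃* T) := by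
  obtain ⟨n1, n2, n3, n4⟩ := not_small hY hE
  have key : ∀ {m : ℕ} {p' f' : ℕ}, Art.Real (.C m) p' f' (Nat.card T) → False := by
    intro m p' f' h'
    rcases eq_or_ne p p' with rfl | hpp
    · rcases Art.same_char hY h' with ⟨h, -⟩ | h
      · rw [h] at hE; cases hE
      · exact n4 h
    · rcases Art.cross_char hY h' hpp with h | h | h
      · exact n1 h
      · exact n2 h
      · exact n3 h
  rcases Artin.artin hcard with h | ⟨h1, h2⟩ | ⟨h1, h2⟩ | ⟨m, q', hm, hq', h1, h2⟩ | ⟨m, q', hm, hq', h1, h2⟩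
  · exact h
  · exfalso
    obtain ⟨e⟩ := h1
    have h3 := alt_card (by norm_num) e
    apply n4
    rw [← hcard]
    norm_num [Nat.factorial] at h3
    omega
  · exfalso
    obtain ⟨e⟩ := h2
    have h3 := alt_card (by norm_num) e
    apply n4
    norm_num [Nat.factorial] at h3
    omega
  · exfalso
    obtain ⟨K, _, _, hK, ⟨e⟩⟩ := h2
    obtain ⟨p', f', hp', hf', hK'⟩ := exists_pp K
    have ho : Odd (p' ^ f') := by rw [← hK', hK]; exact hq'
    apply key (m := m) (p' := p') (f' := f')
    rw [Nat.card_congr e.toEquiv]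
    exact oodd_real hp' hf' hK' hm ho
  · exfalso
    obtain ⟨K, _, _, hK, ⟨e⟩⟩ := h2
    obtain ⟨p', f', hp', hf', hK'⟩ := exists_pp K
    apply key (m := m) (p' := p') (f' := f')
    rw [Nat.card_congr e.toEquiv]
    exact psp_real hp' hf' hK' (by omega) (by omega)

end Cfsg.Agent.H962.ExUnique
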