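import Cfsg.Agent.H962.ExCore
import Cfsg.Agent.H962.CycNum
import Cfsg.Agent.H992.TC.Alt
import Cfsg.Agent.H402.AltGrp

/-!
# The full case: the simple factor is a `p'`-group (helper962)
-/

set_option autoImplicit false

namespace Cfsg.Agent.H962.Full

open Subgroup Cfsg Cfsg.Agent.OrdDiv Cfsg.Lie
open Cfsg.Agent.H902 Cfsg.Agent.H902.Art Cfsg.Agent.H364

universe u

theorem not_dvd_of_real {X : Sh} {p f M : ℕ} (h : Art.Real X p f M) : p ∣ M := by
  have h1 := h.P_self
  have h2 : p ^ 1 ∣ P p M := by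
    rw [h1, ← pow_mul]
    exact pow_dvd_pow p (Nat.mul_pos h.hf (NN_pos h))
  rw [pow_one] at h2
  exact h2.trans (Nat.ordProj_dvd _ _)

/-- **A simple `p'`-group with an isolated number `m > (p - 1) (p - 3)`.** -/
theorem full_false {S : Type u} [Group S] [Finite S] [IsSimpleGroup S] (hna : ¬ ∀ a b : S, a * b = b * a) {p m : ℕ}
    (hp : p.Prime) (hpS : ¬ p ∣ Nat.card S) (hm6 : m.Coprime 6) (hmS : m ∣ Nat.card S)
    (hmp : (p - 1) * (p - 3) < m) (hiso : ∀ r, r.Prime → r ∣ m → NoEdge S r 3)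
    (hspor : ∀ x ∈ spor, Nat.card S = x.2 → False)
    (hcross : ∀ X t g, Art.Real X t g (Nat.card S) → t ≠ p → False) : False := by
  have hknown := Cfsg.Agent.S0000.result (G := S)
  have h2S : 2 ∣ Nat.card S := two_dvd_card hna
  have hp2 : p ≠ 2 := by rintro rfl; exact hpS h2S
  rcases Names.exists_nam table hknown hna with ⟨n, hn, hr, hc⟩ | ⟨g, X, t, k, hg, hr, hc⟩ | ⟨x, hx, hr, hc⟩
  · have hnp : n < p := by
      by_contra hcon
      push Not at hcon
      have h1 : p ∣ n.factorial := hp.dvd_factorial.2 hcon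
      rw [← hc] at h1
      rcases hp.dvd_mul.1 h1 with h | h
      · exact hp2 ((Nat.prime_dvd_prime_iff_eq hp Nat.prime_two).1 h)
      · exact hpS h
    have hmn : m ∣ n.factorial := by rw [← hc]; exact Dvd.dvd.mul_left hmS 2
    have hle := H992.TC.mm_le hm6 hn hmn (fun r hr' hrm => by
      by_contra hcon
      have hr6 : r.Coprime 6 := hm6.coprime_dvd_left hrm
      have hr2 : r ≠ 2 := by rintro rfl; revert hr6; decide
      have hr3 : r ≠ 3 := by rintro rfl; revert hr6; decide
      obtain ⟨ea⟩ := hr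
      obtain ⟨g, hg⟩ := Cfsg.Agent.H402.AltG.exists_two (m := n) hr' Nat.prime_three hr3 hr2 (by norm_num) (by omega)
      exact hiso r hr' hrm (ea.symm g) (by rw [MulEquiv.orderOf_eq, hg]))
    have h1 : n * (n - 2) ≤ (p - 1) * (p - 3) := Nat.mul_le_mul (by omega) (by omega)
    omega
  · by_cases htp : t = p
    · subst htp
      exact hpS (not_dvd_of_real hc)
    · exact hcross X t k hc htp
  · exact hspor x hx hc

end Cfsg.Agent.H962.Full
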