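import Cfsg.Agent.H962.NumF4b

/-!
# Numbers for `³D₄(q)` (helper962)
-/

set_option autoImplicit false

namespace Cfsg.Agent.H962.NumD4

open Cfsg Cfsg.Agent.OrdDiv Cfsg.Agent.H902 Cfsg.Agent.H902.Art Cfsg.Agent.H962.CycNum Cfsg.Agent.H992.TC
open Cfsg.Agent.H962.NumF4

universe u

variable {p f M q r : ℕ}

theorem M_eq (h : Art.Real .TD4 p f M) : M = (p ^ f) ^ 12 * (((p ^ f) ^ 2 - 1) * ((p ^ f) ^ 6 - 1) *
    ((p ^ f) ^ 8 + (p ^ f) ^ 4 + 1)) := by
  have h1 : 1 * M = (p ^ f) ^ 12 * num .TD4 (p ^ f) := h.eq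
  rw [one_mul] at h1
  exact h1

/-- the cofactor of the Coxeter torus -/
def A4 (q : ℕ) : ℕ := q ^ 12 * ((q ^ 2 - 1) * (q ^ 6 - 1) * (q ^ 4 + q ^ 2 + 1))

theorem M_t12 (h : Art.Real .TD4 p f M) : M = t12 (p ^ f) * A4 (p ^ f) := by
  have hq : 1 ≤ p ^ f := by have := h.q_ge; omega
  rw [M_eq h]
  generalize p ^ f = q at hq ⊢
  zify
  rw [A4]
  push_cast [t12_cast hq, sub_cast hq]
  ring

theorem t12_mod (h : Art.Real .TD4 p f M) (hr : r.Prime) (hrm : r ∣ t12 (p ^ f)) :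
    4 < r ∧ M / t12 (p ^ f) ≡ 4 [MOD r] := by
  have hq : 1 ≤ p ^ f := by have := h.q_ge; omega
  have h12 := order_lt hr (t12_order hq hr hrm) (by norm_num)
  refine ⟨by omega, ?_⟩
  rw [M_t12 h, Nat.mul_div_cancel_left _ (by rw [t12]; omega)]
  have hz := t12_zmod hq hrm
  rw [← ZMod.natCast_eq_natCast_iff]
  generalize p ^ f = q at hq hz ⊢
  have hc : ((A4 q : ℕ) : ℤ) = (q : ℤ) ^ 12 * (((q : ℤ) ^ 2 - 1) * ((q : ℤ) ^ 6 - 1) *
      ((q : ℤ) ^ 4 + (q : ℤ) ^ 2 + 1)) := by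
    rw [A4]; push_cast [sub_cast hq]; ring
  have hc2 : ((A4 q : ℕ) : ZMod r) = (q : ZMod r) ^ 12 * (((q : ZMod r) ^ 2 - 1) * ((q : ZMod r) ^ 6 - 1) *
      ((q : ZMod r) ^ 4 + (q : ZMod r) ^ 2 + 1)) := by
    have := congrArg (Int.cast : ℤ → ZMod r) hc
    push_cast at this
    exact this
  rw [hc2]
  generalize (q : ZMod r) = x at hz ⊢
  have e4 : x ^ 4 = x ^ 2 - 1 := by linear_combination hz
  have e6 : x ^ 6 = -1 := by linear_combination (x ^ 2 + 1) * hz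
  have e12 : x ^ 12 = 1 := by
    calc x ^ 12 = (x ^ 6) ^ 2 := by ring
      _ = 1 := by rw [e6]; ring
  rw [e12, e6, e4]
  push_cast
  linear_combination (-4 : ZMod r) * hz

theorem p_not_dvd (h : Art.Real .TD4 p f M) : ¬ p ∣ t12 (p ^ f) := by
  intro h1
  have hp := h.hp
  have hq : 1 ≤ p ^ f := by have := h.q_ge; omega
  have : Fact p.Prime := ⟨hp⟩
  have hz := t12_zmod hq h1
  have h0 : ((p ^ f : ℕ) : ZMod p) = 0 := by
    rw [ZMod.natCast_eq_zero_iff]; exact dvd_pow_self p (by have := h.hf; omega)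
  rw [h0] at hz
  norm_num at hz

/-! ### `Φ₃` -/

theorem order_three (hr : r.Prime) (h3 : r ≠ 3) (h : r ∣ q ^ 2 + q + 1) : orderOf (q : ZMod r) = 3 := by
  have : Fact r.Prime := ⟨hr⟩
  have hz : (q : ZMod r) ^ 2 + (q : ZMod r) + 1 = 0 := by
    have := (ZMod.natCast_eq_zero_iff (q ^ 2 + q + 1) r).2 h
    push_cast at this
    exact this
  exact o3 hz (three_ne h3)

theorem phi3_odd : ¬ 2 ∣ q ^ 2 + q + 1 := by
  intro h
  have h1 : q ^ 2 + q + 1 = q * (q + 1) + 1 := by ring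
  have h2 : 2 ∣ q * (q + 1) := (Nat.even_mul_succ_self q).two_dvd
  omega

theorem dvd_sub_iff (hq : 1 ≤ q) (k : ℕ) : r ∣ q ^ k - 1 ↔ (q : ZMod r) ^ k = 1 := by
  rw [← ZMod.natCast_eq_zero_iff, Nat.cast_sub (Nat.one_le_pow _ _ hq)]
  push_cast
  exact sub_eq_zero

/-- a prime power dividing `M`, `q` of order 3 modulo the prime -/
theorem pow_dvd_three (h : Art.Real .TD4 p f M) (hr : r.Prime) (h3 : r ≠ 3) (hrd : r ∣ (p ^ f) ^ 2 + p ^ f + 1) {v : ℕ}
    (hv : r ^ v ∣ M) : r ^ v ∣ ((p ^ f) ^ 2 + p ^ f + 1) ^ 2 := by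
  have hq : 1 ≤ p ^ f := by have := h.q_ge; omega
  have ho := order_three hr h3 hrd
  have hr2 : r ≠ 2 := by rintro rfl; exact phi3_odd hrd
  have hrp : ¬ r ∣ p ^ f := by
    intro h3
    have h5 : r ∣ (p ^ f) ^ 2 + p ^ f := dvd_add (dvd_pow h3 (by norm_num)) h3
    exact hr.one_lt.ne' (Nat.dvd_one.1 ((Nat.dvd_add_right h5).1 hrd))
  rw [M_eq h] at hv
  generalize p ^ f = q at hq ho hrp hv hrd ⊢
  have hqq : q ≤ q ^ 2 := Nat.le_self_pow (by norm_num) q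
  have e : (q ^ 12 * ((q ^ 2 - 1) * (q ^ 6 - 1) * (q ^ 8 + q ^ 4 + 1)) : ℕ) =
      (q ^ 2 + q + 1) ^ 2 * (q ^ 12 * ((q ^ 2 - 1) ^ 2 * (q ^ 2 - q + 1) ^ 2 * t12 q)) := by
    zify
    push_cast [sub_cast hq, t12_cast hq, Nat.cast_sub hqq]
    ring
  refine pow_dvd_of_coprime hv e hr ?_
  have hf : Fact r.Prime := ⟨hr⟩
  intro hd
  rcases hr.dvd_mul.1 hd with h1 | h1
  · exact hrp (hr.dvd_of_dvd_pow h1)
  · rcases hr.dvd_mul.1 h1 with h1 | h1
    · rcases hr.dvd_mul.1 h1 with h1 | h1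
      · exact pow_ne_of_order ho (show ¬ 3 ∣ 2 by norm_num) ((dvd_sub_iff hq 2).1 (hr.dvd_of_dvd_pow h1))
      · have h2 := hr.dvd_of_dvd_pow h1
        have hz : (q : ZMod r) ^ 2 - (q : ZMod r) + 1 = 0 := by
          have := (ZMod.natCast_eq_zero_iff (q ^ 2 - q + 1) r).2 h2
          rw [Nat.cast_add, Nat.cast_sub hqq] at this
          push_cast at this
          exact this
        have := o6 hz (two_ne hr2) (three_ne h3)
        omega
    · have := t12_order hq hr h1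
      omega

/-- **No normal `r`-subgroup, `q` of order 3 modulo `r`.** -/
theorem three_zero (h : Art.Real .TD4 p f M) (hr : r.Prime) (h3 : r ≠ 3) (hrd : r ∣ (p ^ f) ^ 2 + p ^ f + 1) {v : ℕ}
    (hv : r ^ v ∣ M) (hm : t12 (p ^ f) ∣ r ^ v - 1) : v = 0 := by
  have h1 := pow_dvd_three h hr h3 hrd hv
  have hq := h.q_ge
  generalize p ^ f = q at hq h1 hm hrd
  have h42 := sq_le (q := q) (by omega)
  by_cases hq4 : 4 ≤ q
  · have e3 : q ^ 3 = q * q ^ 2 := by ring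
    have e4 : q ^ 4 = q * q ^ 3 := by ring
    have h5 : 4 * q ^ 2 ≤ q ^ 3 := by rw [e3]; exact Nat.mul_le_mul_right _ hq4
    have h6 : 4 * q ^ 3 ≤ q ^ 4 := by rw [e4]; exact Nat.mul_le_mul_right _ hq4
    have h7 : 4 * q ≤ q ^ 2 := by rw [sq]; exact Nat.mul_le_mul_right _ hq4
    have e : (q ^ 2 + q + 1) ^ 2 = q ^ 4 + 2 * q ^ 3 + 3 * q ^ 2 + 2 * q + 1 := by ring
    refine pow_eq_one_of_near hm h1 (by positivity) ?_ ?_ hr
    · rw [e, t12]; omega
    · rw [e, t12]; omega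
  · have hq23 : q = 2 ∨ q = 3 := by omega
    rcases hq23 with rfl | rfl
    · have h4 : r = 7 := (Nat.prime_dvd_prime_iff_eq hr (by norm_num)).1 hrd
      subst h4
      have h5 : v ≤ 2 := (Nat.pow_dvd_pow_iff_le_right (by norm_num)).1 h1
      interval_cases v
      · rfl
      · exact absurd hm (by decide)
      · exact absurd hm (by decide)
    · have h4 : r = 13 := (Nat.prime_dvd_prime_iff_eq hr (by norm_num)).1 hrd
      subst h4
      have h5 : v ≤ 2 := (Nat.pow_dvd_pow_iff_le_right (by norm_num)).1 h1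
      interval_cases v
      · rfl
      · exact absurd hm (by decide)
      · exact absurd hm (by decide)

/-- a prime divisor of `q² + q + 1` different from 3 -/
theorem exists_three (hq : 2 ≤ q) : ∃ t : ℕ, t.Prime ∧ t ≠ 3 ∧ t ∣ q ^ 2 + q + 1 := by
  by_contra hno
  push Not at hno
  have h9 : ¬ 9 ∣ q ^ 2 + q + 1 := by
    intro h
    have : (q ^ 2 + q + 1) % 9 = 0 := Nat.mod_eq_zero_of_dvd h
    have h1 : (q ^ 2 + q + 1) % 9 = ((q % 9) ^ 2 + q % 9 + 1) % 9 := by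
      rw [Nat.add_mod, Nat.add_mod (q ^ 2) q, Nat.pow_mod]
      simp [Nat.add_mod]
    rw [h1] at this
    have h2 : q % 9 < 9 := Nat.mod_lt _ (by norm_num)
    generalize q % 9 = x at this h2
    interval_cases x <;> omega
  have h4 : q ^ 2 + q + 1 = 3 ^ (q ^ 2 + q + 1).primeFactorsList.length :=
    Nat.eq_prime_pow_of_unique_prime_dvd (by omega) fun {d} hd hd' => by
      by_contra hne
      exact hno d hd hne hd'
  have h5 : (q ^ 2 + q + 1).primeFactorsList.length < 2 := by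
    by_contra h6
    apply h9
    rw [h4]
    exact pow_dvd_pow 3 (by omega : 2 ≤ _)
  have h7 : 3 ^ (q ^ 2 + q + 1).primeFactorsList.length ≤ 3 := by
    interval_cases (q ^ 2 + q + 1).primeFactorsList.length <;> norm_num
  have h8 : 4 ≤ q ^ 2 := by nlinarith
  omega

end Cfsg.Agent.H962.NumD4
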