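import Cfsg.Agent.H962.CycNum
import Cfsg.Agent.H992.TC.Cross
import Cfsg.Agent.H992.TC.Small
import Cfsg.Agent.H992.TC.Spor
import Cfsg.Agent.H364.Iso3

/-!
# Numbers for `F₄(q)` (helper962)
-/

set_option autoImplicit false

namespace Cfsg.Agent.H962.NumF4

open Cfsg Cfsg.Agent.OrdDiv Cfsg.Agent.H902 Cfsg.Agent.H902.Art Cfsg.Agent.H962.CycNum Cfsg.Agent.H992.TC

/-- the order of the Coxeter torus -/
def t12 (q : ℕ) : ℕ := q ^ 4 - q ^ 2 + 1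

variable {q r : ℕ}

theorem sq_le (hq : 1 ≤ q) : q ^ 2 ≤ q ^ 4 := Nat.pow_le_pow_right hq (by norm_num)

theorem t12_cast (hq : 1 ≤ q) : ((t12 q : ℕ) : ℤ) = 1 - (q : ℤ) ^ 2 + (q : ℤ) ^ 4 := by
  rw [t12]
  push_cast [Nat.cast_sub (sq_le hq)]
  ring

theorem t12_zmod (hq : 1 ≤ q) (h : r ∣ t12 q) : (q : ZMod r) ^ 4 - (q : ZMod r) ^ 2 + 1 = 0 := by
  have := cast_eq (t12_cast hq) h
  push_cast at this
  linear_combination this

theorem dvd_t12 (hq : 1 ≤ q) (h : (q : ZMod r) ^ 4 - (q : ZMod r) ^ 2 + 1 = 0) : r ∣ t12 q := by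
  refine dvd_of_cast (t12_cast hq) ?_
  push_cast
  linear_combination h

theorem t12_ne (hq : 1 ≤ q) (h : r ∣ t12 q) : r ≠ 2 ∧ r ≠ 3 := by
  have hz := t12_zmod hq h
  constructor
  · rintro rfl
    generalize (q : ZMod 2) = x at hz; revert hz; revert x; decide
  · rintro rfl
    generalize (q : ZMod 3) = x at hz; revert hz; revert x; decide

theorem t12_order (hq : 1 ≤ q) (hr : r.Prime) (h : r ∣ t12 q) : orderOf (q : ZMod r) = 12 := by
  have : Fact r.Prime := ⟨hr⟩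
  obtain ⟨h2, h3⟩ := t12_ne hq h
  exact o12 (t12_zmod hq h) (two_ne h2) (three_ne h3)

theorem t12_coprime_six (hq : 1 ≤ q) : (t12 q).Coprime 6 := by
  refine Nat.coprime_of_dvd fun r hr h1 h2 => ?_
  obtain ⟨h3, h4⟩ := t12_ne hq h1
  have h5 : r ∣ 2 * 3 := h2
  rcases hr.dvd_mul.1 h5 with h | h
  · exact h3 ((Nat.prime_dvd_prime_iff_eq hr Nat.prime_two).1 h)
  · exact h4 ((Nat.prime_dvd_prime_iff_eq hr Nat.prime_three).1 h)

theorem t12_gt (hq : 2 ≤ q) : q ^ 2 < t12 q := by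
  rw [t12]
  have h1 : q ^ 4 = q ^ 2 * q ^ 2 := by ring
  have h2 : 4 ≤ q ^ 2 := by nlinarith
  have h3 : 2 * q ^ 2 ≤ q ^ 2 * q ^ 2 := Nat.mul_le_mul_right _ (by omega)
  omega

/-! sporadic groups -/

/-- the primes of the sporadic groups which are not congruent to 1 modulo 12 -/
def sl : List ℕ := [2, 3, 5, 7, 11, 17, 19, 23, 29, 31, 41, 43, 47, 59, 67, 71]

theorem spor_coprime : ∀ x ∈ spor, ∃ D, x.2 ∣ 13 ^ 3 * 37 * D ∧ ∀ r, r.Prime → r ∣ D → r ≤ 71 ∧ ¬ 12 ∣ r - 1 := by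
  intro x hx
  have h1 : x.2 ∣ 13 ^ 3 * 37 * (sl.prod) ^ 50 := by
    have : (spor.all fun x => Nat.beq ((13 ^ 3 * 37 * (sl.prod) ^ 50) % x.2) 0) = true := by
      decide +kernel
    exact Nat.dvd_of_mod_eq_zero (Nat.eq_of_beq_eq_true (List.all_eq_true.1 this x hx))
  refine ⟨_, h1, fun r hr hrd => ?_⟩
  have h2 : r ∣ sl.prod := hr.dvd_of_dvd_pow hrd
  obtain ⟨a, ha, hra⟩ := (Prime.dvd_prod_iff hr.prime).1 h2
  have h3 : ∀ a ∈ sl, a.Prime ∧ a ≤ 71 ∧ ¬ 12 ∣ a - 1 := by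
    intro a ha
    simp only [sl, List.mem_cons, List.mem_nil_iff, or_false] at ha
    rcases ha with rfl | rfl | rfl | rfl | rfl | rfl | rfl | rfl | rfl | rfl | rfl | rfl | rfl | rfl | rfl | rfl <;>
      norm_num
  obtain ⟨h4, h5, h6⟩ := h3 a ha
  rw [(Nat.prime_dvd_prime_iff_eq hr h4).1 hra]
  exact ⟨h5, h6⟩

theorem t12_dvd_spor (hq : 3 ≤ q) {x : Grp × ℕ} (hx : x ∈ spor) : ¬ t12 q ∣ x.2 := by
  intro h
  obtain ⟨D, h1, h2⟩ := spor_coprime x hx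
  have hcop : (t12 q).Coprime D := by
    refine Nat.coprime_of_dvd fun r hr h3 h4 => ?_
    exact (h2 r hr h4).2 (order_dvd hr (t12_order (by omega) hr h3) (by norm_num))
  have h3 : t12 q ∣ 13 ^ 3 * 37 := hcop.dvd_of_dvd_mul_right (h.trans h1)
  have h4 : t12 q ≤ 13 ^ 3 * 37 := Nat.le_of_dvd (by norm_num) h3
  have hq17 : q < 17 := by
    by_contra hcon
    have h5 : 17 ≤ q := by omega
    have h8 : 289 ≤ q ^ 2 := by nlinarith
    have h6 : q ^ 2 * 288 ≤ q ^ 4 - q ^ 2 := by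
      have h7 : q ^ 4 = q ^ 2 * q ^ 2 := by ring
      have h10 : q ^ 2 * 288 + q ^ 2 = q ^ 2 * 289 := by ring
      apply Nat.le_sub_of_add_le
      rw [h7, h10]
      exact Nat.mul_le_mul_left _ h8
    have h9 : 289 * 288 ≤ q ^ 2 * 288 := Nat.mul_le_mul_right _ h8
    rw [t12] at h4
    norm_num at h4 h9
    omega
  have : ∀ q < 17, 3 ≤ q → ¬ t12 q ∣ 13 ^ 3 * 37 := by decide +kernel
  exact this q hq17 hq h3

/-! the order of `F₄(q)` -/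

variable {p f M : ℕ}

theorem M_eq (h : Art.Real .F4 p f M) : M = (p ^ f) ^ 24 * (((p ^ f) ^ 2 - 1) * ((p ^ f) ^ 6 - 1) * ((p ^ f) ^ 8 - 1) *
    ((p ^ f) ^ 12 - 1)) := by
  have h1 : 1 * M = (p ^ f) ^ 24 * num .F4 (p ^ f) := h.eq
  rw [one_mul] at h1
  exact h1

theorem sub_cast (hq : 1 ≤ q) (k : ℕ) : ((q ^ k - 1 : ℕ) : ℤ) = (q : ℤ) ^ k - 1 := by
  rw [Nat.cast_sub (Nat.one_le_pow _ _ hq)]; push_cast; ring

/-- the cofactor of the Coxeter torus -/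
def A12 (q : ℕ) : ℕ := q ^ 24 * ((q ^ 2 - 1) * (q ^ 6 - 1) * (q ^ 8 - 1) * ((q ^ 6 - 1) * (q ^ 2 + 1)))

theorem M_t12 (h : Art.Real .F4 p f M) : M = t12 (p ^ f) * A12 (p ^ f) := by
  have hq : 1 ≤ p ^ f := by have := h.q_ge; omega
  rw [M_eq h]
  generalize p ^ f = q at hq ⊢
  zify
  rw [A12]
  push_cast [t12_cast hq, sub_cast hq]
  ring

theorem t12_mod (h : Art.Real .F4 p f M) (hr : r.Prime) (hrm : r ∣ t12 (p ^ f)) :
    12 < r ∧ M / t12 (p ^ f) ≡ 12 [MOD r] := by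
  have hq : 1 ≤ p ^ f := by have := h.q_ge; omega
  refine ⟨order_lt hr (t12_order hq hr hrm) (by norm_num), ?_⟩
  rw [M_t12 h, Nat.mul_div_cancel_left _ (by rw [t12]; omega)]
  have hz := t12_zmod hq hrm
  rw [← ZMod.natCast_eq_natCast_iff]
  generalize p ^ f = q at hq hz ⊢
  have hc : ((A12 q : ℕ) : ℤ) = (q : ℤ) ^ 24 * (((q : ℤ) ^ 2 - 1) * ((q : ℤ) ^ 6 - 1) * ((q : ℤ) ^ 8 - 1) *
      (((q : ℤ) ^ 6 - 1) * ((q : ℤ) ^ 2 + 1))) := by
    rw [A12]; push_cast [sub_cast hq]; ring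
  have hc2 : ((A12 q : ℕ) : ZMod r) = (q : ZMod r) ^ 24 * (((q : ZMod r) ^ 2 - 1) * ((q : ZMod r) ^ 6 - 1) *
      ((q : ZMod r) ^ 8 - 1) * (((q : ZMod r) ^ 6 - 1) * ((q : ZMod r) ^ 2 + 1))) := by
    have := congrArg (Int.cast : ℤ → ZMod r) hc
    push_cast at this
    exact this
  rw [hc2]
  generalize (q : ZMod r) = x at hz ⊢
  have e4 : x ^ 4 = x ^ 2 - 1 := by linear_combination hz
  have e6 : x ^ 6 = -1 := by linear_combination (x ^ 2 + 1) * hz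
  have e8 : x ^ 8 = - x ^ 2 := by linear_combination (x ^ 4 + x ^ 2) * hz
  have e24 : x ^ 24 = 1 := by
    calc x ^ 24 = (x ^ 6) ^ 4 := by ring
      _ = 1 := by rw [e6]; ring
  rw [e24, e6, e8]
  push_cast
  linear_combination (-4 * (x ^ 2 + 2)) * hz

theorem p_not_dvd (h : Art.Real .F4 p f M) : ¬ p ∣ t12 (p ^ f) := by
  intro h1
  have hp := h.hp
  have hq : 1 ≤ p ^ f := by have := h.q_ge; omega
  have : Fact p.Prime := ⟨hp⟩
  have hz := t12_zmod hq h1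
  have h0 : ((p ^ f : ℕ) : ZMod p) = 0 := by
    rw [ZMod.natCast_eq_zero_iff]; exact dvd_pow_self p (by have := h.hf; omega)
  rw [h0] at hz
  norm_num at hz

/-- primes with `q` of order 8 -/
theorem order_eight (hq : 1 ≤ q) (hr : r.Prime) (h2 : r ≠ 2) (h : r ∣ q ^ 4 + 1) : orderOf (q : ZMod r) = 8 := by
  have : Fact r.Prime := ⟨hr⟩
  have hz : (q : ZMod r) ^ 4 + 1 = 0 := by
    have := (ZMod.natCast_eq_zero_iff (q ^ 4 + 1) r).2 h
    push_cast at this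
    exact this
  exact o8 hz (two_ne h2)

theorem dvd_of_eight (h : orderOf (q : ZMod r) = 8) (hr : r.Prime) : r ∣ q ^ 4 + 1 := by
  have : Fact r.Prime := ⟨hr⟩
  have h1 : (q : ZMod r) ^ 4 + 1 = 0 := z8 (pow_eq_of_order h) (pow_ne_of_order h (by norm_num))
  rw [← ZMod.natCast_eq_zero_iff]
  push_cast
  exact h1

/-- a prime power dividing `M`, `q` of order 8 modulo the prime -/
theorem pow_dvd_eight (h : Art.Real .F4 p f M) (hr : r.Prime) (h2 : r ≠ 2) (hrd : r ∣ (p ^ f) ^ 4 + 1) {v : ℕ}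
    (hv : r ^ v ∣ M) : r ^ v ∣ (p ^ f) ^ 4 + 1 := by
  have hq : 1 ≤ p ^ f := by have := h.q_ge; omega
  have ho := order_eight hq hr h2 hrd
  have hp := h.hp
  have hrp : ¬ r ∣ p ^ f := by
    intro h3
    have h4 : r ∣ (p ^ f) ^ 4 := dvd_pow h3 (by norm_num)
    have h5 := (Nat.dvd_add_right h4).1 hrd
    exact hr.one_lt.ne' (Nat.dvd_one.1 h5)
  rw [M_eq h] at hv
  generalize p ^ f = q at hq ho hrp hv hrd ⊢
  have e : (q ^ 24 * ((q ^ 2 - 1) * (q ^ 6 - 1) * (q ^ 8 - 1) * (q ^ 12 - 1)) : ℕ) =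
      (q ^ 4 + 1) * (q ^ 24 * ((q ^ 2 - 1) * (q ^ 6 - 1) * (q ^ 4 - 1) * (q ^ 12 - 1))) := by
    zify
    push_cast [sub_cast hq]
    ring
  refine pow_dvd_of_coprime hv e hr ?_
  have hno : ∀ k, ¬ 8 ∣ k → ¬ r ∣ q ^ k - 1 := by
    intro k hk hd
    apply pow_ne_of_order ho hk
    have h1 := (ZMod.natCast_eq_zero_iff (q ^ k - 1) r).2 hd
    rw [Nat.cast_sub (Nat.one_le_pow _ _ hq)] at h1
    push_cast at h1
    linear_combination h1
  intro hd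
  rcases hr.dvd_mul.1 hd with h1 | h1
  · exact hrp (hr.dvd_of_dvd_pow h1)
  · rcases hr.dvd_mul.1 h1 with h1 | h1
    · rcases hr.dvd_mul.1 h1 with h1 | h1
      · rcases hr.dvd_mul.1 h1 with h1 | h1
        · exact hno 2 (by norm_num) h1
        · exact hno 6 (by norm_num) h1
      · exact hno 4 (by norm_num) h1
    · exact hno 12 (by norm_num) h1

/-- **No normal `r`-subgroup, `q` of order 8 modulo `r`.** -/
theorem eight_zero (h : Art.Real .F4 p f M) (hr : r.Prime) (h2 : r ≠ 2) (hrd : r ∣ (p ^ f) ^ 4 + 1) {v : ℕ}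
    (hv : r ^ v ∣ M) (hm : t12 (p ^ f) ∣ r ^ v - 1) : v = 0 := by
  have h1 := pow_dvd_eight h hr h2 hrd hv
  have hq := h.q_ge
  generalize p ^ f = q at hq h1 hm
  have h4 := sq_le (q := q) (by omega)
  have h5 : 2 * q ^ 2 ≤ q ^ 4 + 1 := by
    have : q ^ 4 = q ^ 2 * q ^ 2 := by ring
    nlinarith
  have h6 : 4 ≤ q ^ 2 := by nlinarith
  refine pow_eq_one_of_near hm h1 (by omega) ?_ ?_ hr
  · rw [t12]; omega
  · rw [t12]; omega

end Cfsg.Agent.H962.NumF4
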