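import Cfsg.Agent.H962.NumD4b

/-!
# Numbers for `G₂(q)` (helper962)
-/

set_option autoImplicit false

namespace Cfsg.Agent.H962.NumG2

open Cfsg Cfsg.Agent.OrdDiv Cfsg.Agent.H902 Cfsg.Agent.H902.Art Cfsg.Agent.H962.CycNum Cfsg.Agent.H992.TC
open Cfsg.Agent.H962.NumF4 (sub_cast)
open Cfsg.Agent.H962.NumD4 (order_three phi3_odd dvd_sub_iff exists_three)

universe u

variable {p f M q m m' r : ℕ}

theorem M_eq (h : Art.Real .G2 p f M) : M = (p ^ f) ^ 6 * (((p ^ f) ^ 2 - 1) * ((p ^ f) ^ 6 - 1)) := by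
  have h1 : 1 * M = (p ^ f) ^ 6 * num .G2 (p ^ f) := h.eq
  rw [one_mul] at h1
  exact h1

/-- the orders `m`, `m'` of the two tori, `m` prime to 3 -/
def Tor (q m m' : ℕ) : Prop :=
  (q % 3 ≠ 1 ∧ m = q ^ 2 + q + 1 ∧ m' = q ^ 2 - q + 1) ∨ (q % 3 = 1 ∧ m = q ^ 2 - q + 1 ∧ m' = q ^ 2 + q + 1)

theorem exists_tor (q : ℕ) : ∃ m m', Tor q m m' := by
  by_cases h : q % 3 = 1
  · exact ⟨_, _, Or.inr ⟨h, rfl, rfl⟩⟩
  · exact ⟨_, _, Or.inl ⟨h, rfl, rfl⟩⟩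

theorem le_sq (q : ℕ) : q ≤ q ^ 2 := Nat.le_self_pow (by norm_num) q

theorem phi6_odd : ¬ 2 ∣ q ^ 2 - q + 1 := by
  intro h
  have h1 : q ^ 2 + q = q * (q + 1) := by ring
  have h2 : 2 ∣ q * (q + 1) := (Nat.even_mul_succ_self q).two_dvd
  have := le_sq q
  omega

theorem phi6_cast (q : ℕ) : ((q ^ 2 - q + 1 : ℕ) : ℤ) = 1 - (q : ℤ) + (q : ℤ) ^ 2 := by
  push_cast [Nat.cast_sub (le_sq q)]
  ring

theorem phi6_zmod (h : r ∣ q ^ 2 - q + 1) : (q : ZMod r) ^ 2 - (q : ZMod r) + 1 = 0 := by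
  have := cast_eq (phi6_cast q) h
  push_cast at this
  linear_combination this

theorem phi3_zmod (h : r ∣ q ^ 2 + q + 1) : (q : ZMod r) ^ 2 + (q : ZMod r) + 1 = 0 := by
  have := (ZMod.natCast_eq_zero_iff (q ^ 2 + q + 1) r).2 h
  push_cast at this
  exact this

theorem order_six (hr : r.Prime) (h3 : r ≠ 3) (h : r ∣ q ^ 2 - q + 1) : orderOf (q : ZMod r) = 6 := by
  have : Fact r.Prime := ⟨hr⟩
  have h2 : r ≠ 2 := by rintro rfl; exact phi6_odd h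
  exact o6 (phi6_zmod h) (two_ne h2) (three_ne h3)

theorem dvd_phi6 (hr : r.Prime) (h : orderOf (q : ZMod r) = 6) : r ∣ q ^ 2 - q + 1 := by
  have : Fact r.Prime := ⟨hr⟩
  have h1 := z6 (pow_eq_of_order h) (pow_ne_of_order h (show ¬ 6 ∣ 3 by norm_num)) (pow_ne_of_order h (by norm_num))
  refine dvd_of_cast (phi6_cast q) ?_
  push_cast
  linear_combination h1

theorem phi3_mod : (q ^ 2 + q + 1) % 3 = ((q % 3) ^ 2 + q % 3 + 1) % 3 := by
  rw [Nat.add_mod, Nat.add_mod (q ^ 2) q, Nat.pow_mod]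
  simp [Nat.add_mod]

theorem three_dvd_phi3 : 3 ∣ q ^ 2 + q + 1 ↔ q % 3 = 1 := by
  rw [Nat.dvd_iff_mod_eq_zero, phi3_mod]
  have h2 : q % 3 < 3 := Nat.mod_lt _ (by norm_num)
  generalize q % 3 = x at h2
  interval_cases x <;> norm_num

theorem three_dvd_phi6 : 3 ∣ q ^ 2 - q + 1 ↔ q % 3 = 2 := by
  have hqq := le_sq q
  have h1 : 3 ∣ q ^ 2 - q + 1 ↔ 3 ∣ q ^ 2 + 2 * q + 1 := by
    have e : q ^ 2 + 2 * q + 1 = q ^ 2 - q + 1 + 3 * q := by omega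
    rw [e]
    exact (Nat.dvd_add_left (Dvd.intro _ rfl)).symm
  have h3 : (q ^ 2 + 2 * q + 1) % 3 = ((q % 3) ^ 2 + 2 * (q % 3) + 1) % 3 := by
    rw [Nat.add_mod, Nat.add_mod (q ^ 2) (2 * q), Nat.pow_mod, Nat.mul_mod]
    simp [Nat.add_mod]
  rw [h1, Nat.dvd_iff_mod_eq_zero, h3]
  have h2 : q % 3 < 3 := Nat.mod_lt _ (by norm_num)
  generalize q % 3 = x at h2
  interval_cases x <;> norm_num

namespace Tor

theorem ne (h : Tor q m m') (hrm : r ∣ m) : r ≠ 2 ∧ r ≠ 3 := by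
  rcases h with ⟨h1, h2, h3⟩ | ⟨h1, h2, h3⟩
  · rw [h2] at hrm
    constructor
    · rintro rfl; exact phi3_odd hrm
    · rintro rfl; exact h1 (three_dvd_phi3.1 hrm)
  · rw [h2] at hrm
    constructor
    · rintro rfl; exact phi6_odd hrm
    · rintro rfl
      have := three_dvd_phi6.1 hrm
      omega

theorem coprime_six (h : Tor q m m') : m.Coprime 6 := by
  refine Nat.coprime_of_dvd fun r hr h1 h2 => ?_
  obtain ⟨h3, h4⟩ := h.ne h1
  have h5 : r ∣ 2 * 3 := h2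
  rcases hr.dvd_mul.1 h5 with h | h
  · exact h3 ((Nat.prime_dvd_prime_iff_eq hr Nat.prime_two).1 h)
  · exact h4 ((Nat.prime_dvd_prime_iff_eq hr Nat.prime_three).1 h)

theorem le (h : Tor q m m') : q ^ 2 - q + 1 ≤ m := by
  rcases h with ⟨h1, h2, h3⟩ | ⟨h1, h2, h3⟩ <;> omega

theorem gt (h : Tor q m m') (hq : 3 ≤ q) : 6 < m ∧ q < m := by
  have h1 := h.le
  have h2 : 3 * q ≤ q ^ 2 := by rw [sq]; exact Nat.mul_le_mul_right _ hq
  omega

/-- the order modulo a prime divisor of `m` -/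
theorem order (h : Tor q m m') (hr : r.Prime) (hrm : r ∣ m) :
    (q % 3 ≠ 1 ∧ orderOf (q : ZMod r) = 3) ∨ (q % 3 = 1 ∧ orderOf (q : ZMod r) = 6) := by
  obtain ⟨hr2, hr3⟩ := h.ne hrm
  rcases h with ⟨h1, h2, h3⟩ | ⟨h1, h2, h3⟩
  · rw [h2] at hrm
    exact Or.inl ⟨h1, order_three hr hr3 hrm⟩
  · rw [h2] at hrm
    exact Or.inr ⟨h1, order_six hr hr3 hrm⟩

/-- the order modulo a prime divisor of `m'` -/
theorem order' (h : Tor q m m') (hr : r.Prime) (hr3 : r ≠ 3) (hrm : r ∣ m') :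
    (q % 3 ≠ 1 ∧ orderOf (q : ZMod r) = 6) ∨ (q % 3 = 1 ∧ orderOf (q : ZMod r) = 3) := by
  rcases h with ⟨h1, h2, h3⟩ | ⟨h1, h2, h3⟩
  · rw [h3] at hrm
    exact Or.inl ⟨h1, order_six hr hr3 hrm⟩
  · rw [h3] at hrm
    exact Or.inr ⟨h1, order_three hr hr3 hrm⟩

end Tor

theorem num_factor (hq : 1 ≤ q) : num .G2 q = (q ^ 2 - 1) ^ 2 * ((q ^ 2 + q + 1) * (q ^ 2 - q + 1)) := by
  show (q ^ 2 - 1) * (q ^ 6 - 1) = _
  zify
  push_cast [sub_cast hq, Nat.cast_sub (le_sq q)]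
  ring

theorem M_m (h : Art.Real .G2 p f M) (hT : Tor (p ^ f) m m') :
    M = m * ((p ^ f) ^ 6 * (((p ^ f) ^ 2 - 1) ^ 2 * m')) := by
  have hq : 1 ≤ p ^ f := by have := h.q_ge; omega
  have e : M = (p ^ f) ^ 6 * num .G2 (p ^ f) := M_eq h
  rw [e, num_factor hq]
  rcases hT with ⟨-, rfl, rfl⟩ | ⟨-, rfl, rfl⟩ <;> ring

theorem mod6 (h : Art.Real .G2 p f M) (hT : Tor (p ^ f) m m') (hr : r.Prime) (hrm : r ∣ m) :
    6 < r ∧ M / m ≡ 6 [MOD r] := by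
  have hq : 1 ≤ p ^ f := by have := h.q_ge; omega
  obtain ⟨hr2, hr3⟩ := hT.ne hrm
  have hm0 : 0 < m := by have := hT.le; omega
  constructor
  · have h3 : 3 ∣ r - 1 := by
      rcases hT.order hr hrm with ⟨-, h1⟩ | ⟨-, h1⟩
      · exact order_dvd hr h1 (by norm_num)
      · exact (by norm_num : 3 ∣ 6).trans (order_dvd hr h1 (by norm_num))
    by_contra hcon
    have h2 := hr.two_le
    have h4 : r = 4 := by omega
    rw [h4] at hr
    exact absurd hr (by decide)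
  rw [M_m h hT, Nat.mul_div_cancel_left _ hm0, ← ZMod.natCast_eq_natCast_iff]
  generalize p ^ f = q at hq hT ⊢
  have hsub : (((q ^ 2 - 1 : ℕ)) : ZMod r) = (q : ZMod r) ^ 2 - 1 := by
    rw [Nat.cast_sub (Nat.one_le_pow _ _ hq)]; push_cast; ring
  rcases hT with ⟨h1, h2, h3⟩ | ⟨h1, h2, h3⟩
  · rw [h2] at hrm
    have hz := phi3_zmod hrm
    have hm' : ((m' : ℕ) : ZMod r) = (q : ZMod r) ^ 2 - (q : ZMod r) + 1 := by
      rw [h3, Nat.cast_add, Nat.cast_sub (le_sq q)]; push_cast; ring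
    push_cast
    rw [hsub, hm']
    generalize (q : ZMod r) = x at hz ⊢
    have e3 : x ^ 3 = 1 := by linear_combination (x - 1) * hz
    have e6 : x ^ 6 = 1 := by linear_combination (x ^ 3 + 1) * e3
    rw [e6]
    have e2 : x ^ 2 = -x - 1 := by linear_combination hz
    rw [e2]
    linear_combination (-2 * x - 6) * hz
  · rw [h2] at hrm
    have hz := phi6_zmod hrm
    have hm' : ((m' : ℕ) : ZMod r) = (q : ZMod r) ^ 2 + (q : ZMod r) + 1 := by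
      rw [h3]; push_cast; ring
    push_cast
    rw [hsub, hm']
    generalize (q : ZMod r) = x at hz ⊢
    have e3 : x ^ 3 = -1 := by linear_combination (x + 1) * hz
    have e6 : x ^ 6 = 1 := by linear_combination (x ^ 3 - 1) * e3
    rw [e6]
    have e2 : x ^ 2 = x - 1 := by linear_combination hz
    rw [e2]
    linear_combination (2 * x - 6) * hz

theorem p_not_dvd (h : Art.Real .G2 p f M) : ¬ p ∣ (p ^ f) ^ 2 + p ^ f + 1 ∧ ¬ p ∣ (p ^ f) ^ 2 - p ^ f + 1 := by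
  have hp := h.hp
  have hf := h.hf
  have h1 : p ∣ p ^ f := dvd_pow_self p (by omega)
  have h2 : p ∣ (p ^ f) ^ 2 := dvd_pow h1 (by norm_num)
  constructor
  · intro h3
    exact hp.one_lt.ne' (Nat.dvd_one.1 ((Nat.dvd_add_right (dvd_add h2 h1)).1 h3))
  · intro h3
    exact hp.one_lt.ne' (Nat.dvd_one.1 ((Nat.dvd_add_right (Nat.dvd_sub h2 h1)).1 h3))

/-- a prime power dividing `M` for a prime dividing `m'` -/
theorem pow_dvd_sec (h : Art.Real .G2 p f M) (hT : Tor (p ^ f) m m') (hr : r.Prime) (h3 : r ≠ 3) (hrd : r ∣ m') {v : ℕ}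
    (hv : r ^ v ∣ M) : r ^ v ∣ m' := by
  have hq : 1 ≤ p ^ f := by have := h.q_ge; omega
  have ho := hT.order' hr h3 hrd
  have hr2 : r ≠ 2 := by
    rintro rfl
    rcases hT with ⟨-, -, h4⟩ | ⟨-, -, h4⟩
    · rw [h4] at hrd; exact phi6_odd hrd
    · rw [h4] at hrd; exact phi3_odd hrd
  have e := M_m h hT
  refine pow_dvd_of_coprime hv (e.trans (show _ = m' * (m * ((p ^ f) ^ 6 * ((p ^ f) ^ 2 - 1) ^ 2)) by ring)) hr ?_
  intro hd
  rcases hr.dvd_mul.1 hd with h1 | h1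
  · rcases hT.order hr h1 with ⟨h5, h6⟩ | ⟨h5, h6⟩ <;> rcases ho with ⟨h7, h8⟩ | ⟨h7, h8⟩ <;> omega
  · rcases hr.dvd_mul.1 h1 with h1 | h1
    · have h2 := hr.dvd_of_dvd_pow h1
      have h4 := (Nat.prime_dvd_prime_iff_eq hr h.hp).1 (hr.dvd_of_dvd_pow h2)
      subst h4
      obtain ⟨h5, h6⟩ := p_not_dvd h
      rcases hT with ⟨-, -, h7⟩ | ⟨-, -, h7⟩
      · rw [h7] at hrd; exact h6 hrd
      · rw [h7] at hrd; exact h5 hrd
    · have h2 := (dvd_sub_iff hq 2).1 (hr.dvd_of_dvd_pow h1)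
      rcases ho with ⟨h7, h8⟩ | ⟨h7, h8⟩
      · exact pow_ne_of_order h8 (show ¬ 6 ∣ 2 by norm_num) h2
      · exact pow_ne_of_order h8 (show ¬ 3 ∣ 2 by norm_num) h2

/-- **No normal `r`-subgroup, `r` a divisor of `m'`.** -/
theorem sec_zero (h : Art.Real .G2 p f M) (hT : Tor (p ^ f) m m') (hr : r.Prime) (h3 : r ≠ 3) (hrd : r ∣ m') {v : ℕ}
    (hv : r ^ v ∣ M) (hm : m ∣ r ^ v - 1) : v = 0 := by
  have h1 := pow_dvd_sec h hT hr h3 hrd hv
  have hq := h.q_ge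
  have hqq := le_sq (p ^ f)
  rcases hT with ⟨h5, h6, h7⟩ | ⟨h5, h6, h7⟩
  · refine pow_eq_one_of_small hm ?_ hr
    refine (Nat.le_of_dvd (by omega) h1).trans (by omega)
  · have h8 : 3 ∣ m' := by rw [h7]; exact three_dvd_phi3.2 h5
    obtain ⟨w, hw⟩ := h8
    have h9 : r ^ v ∣ w := by
      rw [hw] at h1
      refine Nat.Coprime.dvd_of_dvd_mul_left ?_ h1
      refine Nat.Coprime.pow_left v ?_
      exact (Nat.coprime_primes hr Nat.prime_three).2 h3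
    refine pow_eq_one_of_small hm ?_ hr
    have h2 : 2 * p ^ f ≤ (p ^ f) ^ 2 := by rw [sq]; exact Nat.mul_le_mul_right _ hq
    have h10 := Nat.le_of_dvd (by omega) h9
    omega

theorem exists_sec (hT : Tor q m m') (hq : 3 ≤ q) : ∃ s : ℕ, s.Prime ∧ s ≠ 3 ∧ s ∣ m' := by
  rcases hT with ⟨h5, h6, h7⟩ | ⟨h5, h6, h7⟩
  · obtain ⟨s, h1, h2, h3⟩ := exists_three (q := q - 1) (by omega)
    refine ⟨s, h1, h2, ?_⟩
    have e : (q - 1) ^ 2 + (q - 1) + 1 = m' := by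
      rw [h7]
      zify
      push_cast [Nat.cast_sub (le_sq q), Nat.cast_sub (show 1 ≤ q by omega)]
      ring
    rwa [e] at h3
  · obtain ⟨s, h1, h2, h3⟩ := exists_three (q := q) (by omega)
    exact ⟨s, h1, h2, h7 ▸ h3⟩

end Cfsg.Agent.H962.NumG2
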